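import Mathlib
import Cfsg.Agent.Lib.H3.ClassTwo

set_option autoImplicit false

/-! Baer's trick: a group of class at most two and odd exponent-`p` commutators carries an abelian group
structure with the same automorphisms. -/

namespace H65.Baer

open scoped commutatorElement

variable {K : Type*} [Group K]

section
variable (hZ : commutator K ≤ Subgroup.center K)
include hZ

theorem cen (x y z : K) : Commute ⁅x, y⁆ z := H3.ClassTwo.commute_comm hZ x y z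

theorem comm_mul_cen_left (x y z w : K) (m : ℕ) : ⁅x * ⁅y, z⁆ ^ m, w⁆ = ⁅x, w⁆ := by
  rw [H3.ClassTwo.mul_left hZ, H3.ClassTwo.pow_left hZ]
  have : ⁅⁅y, z⁆, w⁆ = 1 := commutatorElement_eq_one_iff_commute.mpr (cen hZ y z w)
  rw [this, one_pow, mul_one]

theorem comm_mul_cen_right (x y z w : K) (m : ℕ) : ⁅w, x * ⁅y, z⁆ ^ m⁆ = ⁅w, x⁆ := by
  rw [H3.ClassTwo.mul_right hZ, H3.ClassTwo.pow_right hZ]
  have : ⁅w, ⁅y, z⁆⁆ = 1 := commutatorElement_eq_one_iff_commute.mpr (cen hZ y z w).symm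
  rw [this, one_pow, mul_one]

end

/-- The Baer sum `x + y = x y [x,y]^m`, `2 m + 1 = p`, makes a class-two group of exponent-`p` commutators abelian. -/
@[reducible] def addCommGroup (hZ : commutator K ≤ Subgroup.center K) (p m : ℕ) (hm : 2 * m + 1 = p)
    (hexp : ∀ x y : K, ⁅x, y⁆ ^ p = 1) : AddCommGroup K where
  add x y := x * y * ⁅x, y⁆ ^ m
  zero := 1
  neg x := x⁻¹
  nsmul := @nsmulRec K ⟨1⟩ ⟨fun x y => x * y * ⁅x, y⁆ ^ m⟩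
  zsmul := @zsmulRec K ⟨1⟩ ⟨fun x y => x * y * ⁅x, y⁆ ^ m⟩ ⟨fun x => x⁻¹⟩ (@nsmulRec K ⟨1⟩ ⟨fun x y => x * y * ⁅x, y⁆ ^ m⟩)
  add_assoc := by
    intro x y z
    show (x * y * ⁅x, y⁆ ^ m) * z * ⁅x * y * ⁅x, y⁆ ^ m, z⁆ ^ m = x * (y * z * ⁅y, z⁆ ^ m) * ⁅x, y * z * ⁅y, z⁆ ^ m⁆ ^ m
    rw [comm_mul_cen_left hZ, comm_mul_cen_right hZ, H3.ClassTwo.mul_left hZ, H3.ClassTwo.mul_right hZ,
      (cen hZ x z _).mul_pow, (cen hZ x y _).mul_pow]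
    have h1 : Commute (⁅x, y⁆ ^ m) z := (cen hZ x y z).pow_left m
    have h2 : Commute (⁅x, y⁆ ^ m) (⁅x, z⁆ ^ m * ⁅y, z⁆ ^ m) := (cen hZ x y _).pow_left m
    have h3 : Commute (⁅y, z⁆ ^ m) (⁅x, y⁆ ^ m * ⁅x, z⁆ ^ m) := (cen hZ y z _).pow_left m
    calc x * y * ⁅x, y⁆ ^ m * z * (⁅x, z⁆ ^ m * ⁅y, z⁆ ^ m)
        = x * y * (⁅x, y⁆ ^ m * z) * (⁅x, z⁆ ^ m * ⁅y, z⁆ ^ m) := by group
      _ = x * y * z * (⁅x, y⁆ ^ m * (⁅x, z⁆ ^ m * ⁅y, z⁆ ^ m)) := by rw [h1.eq]; group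
      _ = x * y * z * ((⁅x, y⁆ ^ m * ⁅x, z⁆ ^ m) * ⁅y, z⁆ ^ m) := by group
      _ = x * y * z * (⁅y, z⁆ ^ m * (⁅x, y⁆ ^ m * ⁅x, z⁆ ^ m)) := by rw [h3.eq]
      _ = x * (y * z * ⁅y, z⁆ ^ m) * (⁅x, y⁆ ^ m * ⁅x, z⁆ ^ m) := by group
  zero_add := by
    intro x
    show 1 * x * ⁅1, x⁆ ^ m = x
    simp
  add_zero := by
    intro x
    show x * 1 * ⁅x, 1⁆ ^ m = x
    simp
  neg_add_cancel := by
    intro x
    show x⁻¹ * x * ⁅x⁻¹, x⁆ ^ m = 1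
    rw [H3.ClassTwo.inv_left hZ]
    simp
  add_comm := by
    intro x y
    show x * y * ⁅x, y⁆ ^ m = y * x * ⁅y, x⁆ ^ m
    have h1 : y * x = x * y * ⁅y, x⁆ := by
      have h2 : y * x = ⁅y, x⁆ * (x * y) := by simp [commutatorElement_def]
      rw [h2, (cen hZ y x _).eq]
    have h3 : ⁅y, x⁆ = ⁅x, y⁆⁻¹ := (commutatorElement_inv x y).symm
    rw [h1, h3, mul_assoc (x * y), ← pow_succ', inv_pow, mul_right_inj, eq_inv_iff_mul_eq_one, ← pow_add]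
    have : m + (m + 1) = p := by omega
    rw [this, hexp]

/-- Automorphisms preserve the Baer sum. -/
theorem map_baer (m : ℕ) (φ : K ≃* K) (x y : K) :
    φ (x * y * ⁅x, y⁆ ^ m) = φ x * φ y * ⁅φ x, φ y⁆ ^ m := by
  rw [map_mul, map_mul, map_pow, map_commutatorElement]

end H65.Baer
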