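import Cfsg.Agent.Lib.H65.CopRep3
import Cfsg.Agent.Lib.H65.CopCrit3
import Cfsg.Agent.Lib.H1.FrobConj
import Cfsg.Agent.Lib.H1.FpfNilp

set_option autoImplicit false
set_option linter.style.haveILetI false
set_option linter.unusedSectionVars false
set_option linter.unusedVariables false

/-! Hall-Higman type theorems: final forms. -/

namespace H65.CopRep

open Subgroup Cfsg Module H65.CopCrit
open scoped commutatorElement

universe u

variable {X : Type u} [Group X] [Finite X]

theorem elem_sub {p : ℕ} {N V : Subgroup X} (hV : IsElementaryAbelian p V) : IsElementaryAbelian p (V.subgroupOf N) := by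
  refine ⟨⟨⟨fun a b => Subtype.ext (Subtype.ext ?_)⟩⟩, fun x hx => Subtype.ext (hV.2 x hx)⟩
  have h4 : ((a : N) : X) * (b : N) = (b : N) * (a : N) :=
    congrArg Subtype.val (hV.1.is_comm.comm (⟨a, a.2⟩ : V) ⟨b, b.2⟩)
  exact h4

theorem comm_of_sub {N A B V : Subgroup X} (hA : A ≤ N) (hB : B ≤ N) (hV : V ≤ N)
    (h : ⁅A.subgroupOf N, B.subgroupOf N⁆ ≤ centralizer (V.subgroupOf N : Set N)) :
    ⁅A, B⁆ ≤ centralizer (V : Set X) := by
  rw [commutator_le]
  intro a ha b hb
  refine mem_centralizer_iff.mpr fun v hv => ?_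
  have h1 : ⁅(⟨a, hA ha⟩ : N), ⟨b, hB hb⟩⁆ ∈ ⁅A.subgroupOf N, B.subgroupOf N⁆ :=
    commutator_mem_commutator ha hb
  exact congrArg Subtype.val (mem_centralizer_iff.mp (h h1) ⟨v, hV hv⟩ hv)

theorem coprime_of_hall {G K R : Subgroup X} (hKG : K ≤ G) (hKn : G ≤ normalizer (K : Set X))
    (hHall : (Nat.card K).Coprime (K.relIndex G)) (hRG : R ≤ G) (hKR : K ⊓ R = ⊥) :
    (Nat.card K).Coprime (Nat.card R) := by
  haveI : (K.subgroupOf G).Normal := (normal_subgroupOf_iff_le_normalizer hKG).mpr hKn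
  have h1 : (K.subgroupOf G).relIndex (R.subgroupOf G) ∣ (K.subgroupOf G).index := relIndex_dvd_index_of_normal _ _
  rw [relIndex_subgroupOf hRG] at h1
  have h2 : K.relIndex R = Nat.card R := by
    rw [← inf_relIndex_right, hKR, relIndex_bot_left]
  rw [h2] at h1
  exact hHall.coprime_dvd_right h1

theorem final69 (G : Subgroup X) (hodd : Odd (Nat.card G)) (V : Subgroup X) {ℓ : ℕ} (hℓ : ℓ.Prime)
    (hV : IsElementaryAbelian ℓ V) (hℓG : ¬ ℓ ∣ Nat.card G) (hGV : G ≤ normalizer (V : Set X)) (K R : Subgroup X)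
    (hKG : K ≤ G) (hKn : G ≤ normalizer (K : Set X)) (hHall : (Nat.card K).Coprime (K.relIndex G)) (hRG : R ≤ G)
    (hR : (Nat.card R).Prime) (hKR : K ⊓ R = ⊥) (hCV : V ⊓ centralizer (R : Set X) = ⊥) :
    ⁅R, K⁆ ≤ centralizer (V : Set X) := by
  haveI : Fact ℓ.Prime := ⟨hℓ⟩
  haveI : Fact (Nat.card R).Prime := ⟨hR⟩
  set N := normalizer (V : Set X) with hN
  haveI : (V.subgroupOf N).Normal := normal_in_normalizer
  have hKN : K ≤ N := hKG.trans hGV
  have hRN : R ≤ N := hRG.trans hGV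
  apply comm_of_sub hRN hKN le_normalizer
  have hcK : Nat.card (K.subgroupOf N) = Nat.card K := card_sub hKN
  apply main69 (ℓ := ℓ) (r := Nat.card R) (K.subgroupOf N) (R.subgroupOf N) (V.subgroupOf N) (elem_sub hV)
  · rw [hcK]; exact fun h => hℓG (h.trans (card_dvd_of_le hKG))
  · rw [hcK]; exact hodd.of_dvd_nat (card_dvd_of_le hKG)
  · exact card_sub hRN
  · intro h
    exact hℓG (h ▸ card_dvd_of_le hRG)
  · rw [hcK]; exact coprime_of_hall hKG hKn hHall hRG hKR
  · exact norm_sub (hRG.trans hKn)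
  · exact disj_sub hRN hCV

theorem final70 (G : Subgroup X) (V : Subgroup X) {ℓ : ℕ} (hℓ : ℓ.Prime) (hV : IsElementaryAbelian ℓ V)
    (hℓG : ¬ ℓ ∣ Nat.card G) (hGV : G ≤ normalizer (V : Set X)) (R : Subgroup ↥G) (hR : IsFrobeniusComplement R)
    (hRp : (Nat.card R).Prime)
    (hCV : Nat.card ↥(V ⊓ centralizer ((R.map G.subtype : Subgroup X) : Set X)) = ℓ) :
    ⁅closure (Subtype.val '' frobeniusKernel R), closure (Subtype.val '' frobeniusKernel R)⁆ ≤
      centralizer (V : Set X) := by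
  haveI : Fact ℓ.Prime := ⟨hℓ⟩
  haveI : Fact (Nat.card R).Prime := ⟨hRp⟩
  obtain ⟨K, hK, hKn, hKc, hKnil⟩ := H1.FpfNilp.frobeniusKernel_nilpotent hR
  have hcl : closure (Subtype.val '' frobeniusKernel R) = K.map G.subtype := by
    have h1 : (Subtype.val '' frobeniusKernel R : Set X) = (K.map G.subtype : Subgroup X) := by
      rw [← hK]; rfl
    rw [h1, closure_eq]
  rw [hcl]
  set K0 := K.map G.subtype with hK0
  set R0 := R.map G.subtype with hR0
  have hK0G : K0 ≤ G := map_subtype_le _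
  have hR0G : R0 ≤ G := map_subtype_le _
  have hcK0 : Nat.card K0 = Nat.card K := Subgroup.card_map_of_injective G.subtype_injective
  have hcR0 : Nat.card R0 = Nat.card R := Subgroup.card_map_of_injective G.subtype_injective
  set N := normalizer (V : Set X) with hN
  haveI : (V.subgroupOf N).Normal := normal_in_normalizer
  have hKN : K0 ≤ N := hK0G.trans hGV
  have hRN : R0 ≤ N := hR0G.trans hGV
  apply comm_of_sub hKN hKN le_normalizer
  have hcK : Nat.card (K0.subgroupOf N) = Nat.card K := by rw [card_sub hKN, hcK0]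
  have hcR : Nat.card (R0.subgroupOf N) = Nat.card R := by rw [card_sub hRN, hcR0]
  have hfpf := H1.FrobConj.fpf_of_TI hR.2.2 hK
  have hRK : R ≤ normalizer (K : Set G) := by rw [normalizer_eq_top]; exact le_top
  have hcop : (Nat.card K).Coprime (Nat.card R) := (H1.FrobSyl.coprime_card R K hRK hfpf).symm
  have hK0n : Group.IsNilpotent K0 :=
    Group.nilpotent_of_mulEquiv (K.equivMapOfInjective G.subtype G.subtype_injective)
  apply main70 (ℓ := ℓ) (r := Nat.card R) (K0.subgroupOf N) (R0.subgroupOf N) (V.subgroupOf N) (elem_sub hV)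
  · rw [hcK, ← hcK0]; exact fun h => hℓG (h.trans (card_dvd_of_le hK0G))
  · exact Group.nilpotent_of_mulEquiv (subgroupOfEquivOfLe hKN).symm
  · exact hcR
  · intro h
    apply hℓG
    rw [← h, ← hcR0]
    exact card_dvd_of_le hR0G
  · rw [hcK]; exact hcop
  · apply norm_sub
    exact map_norm G.subtype hRK
  · apply disj_sub hRN
    rw [eq_bot_iff]
    rintro x ⟨⟨k, hk, rfl⟩, hxc⟩
    obtain ⟨⟨a, ha⟩, ha1⟩ : ∃ a : R, a ≠ 1 := by
      haveI : Nontrivial R := by
        rw [← Finite.one_lt_card_iff_nontrivial]; exact hRp.one_lt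
      exact exists_ne 1
    have ha1' : a ≠ 1 := fun h => ha1 (Subtype.ext h)
    have h1 := hfpf a ha ha1'
    have h2 : k ∈ K ⊓ centralizer {a} := by
      refine ⟨hk, mem_centralizer_singleton_iff.mpr (Subtype.ext ?_)⟩
      exact (mem_centralizer_iff.mp hxc (a : X) ⟨a, ha, rfl⟩).symm
    rw [h1, mem_bot] at h2
    rw [mem_bot, h2]; rfl
  · rw [← hCV]
    have h1 : (V.subgroupOf N ⊓ centralizer (R0.subgroupOf N : Set N) : Subgroup N).map N.subtype =
        V ⊓ centralizer (R0 : Set X) := by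
      ext x
      constructor
      · rintro ⟨y, ⟨hy, hyc⟩, rfl⟩
        refine ⟨hy, mem_centralizer_iff.mpr fun b hb => ?_⟩
        exact congrArg Subtype.val (mem_centralizer_iff.mp hyc ⟨b, hRN hb⟩ hb)
      · rintro ⟨hx, hxc⟩
        refine ⟨⟨x, le_normalizer hx⟩, ⟨hx, mem_centralizer_iff.mpr fun b hb => Subtype.ext ?_⟩, rfl⟩
        exact mem_centralizer_iff.mp hxc b hb
    rw [← h1, Subgroup.card_map_of_injective N.subtype_injective]

end H65.CopRep
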