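import Cfsg.Agent.Lib.H1.FrobConj
import Cfsg.Agent.Lib.H1.FpfNilp
import Cfsg.Agent.Lib.H82.Frob

set_option autoImplicit false
set_option linter.style.haveILetI false
set_option linter.unusedSectionVars false
set_option linter.unusedVariables false

/-! Quotients of Frobenius groups. -/

namespace H65.FrobQuot

open Subgroup Cfsg
open scoped commutatorElement Pointwise

universe u

variable {G : Type u} [Group G] [Finite G]

/-- elements outside the kernel -/
theorem exists_conj {R : Subgroup G} {x : G} (hx : x ∉ frobeniusKernel R) :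
    x ≠ 1 ∧ ∃ g : G, g⁻¹ * x * g ∈ R := by
  have h1 : ¬ (x = 1 ∨ ∀ g : G, x ∉ MulAut.conj g • R) := hx
  push Not at h1
  obtain ⟨h2, g, hg⟩ := h1
  exact ⟨h2, g, H1.SZ.mem_conj_smul.mp hg⟩

theorem main (R : Subgroup G) (hR : IsFrobeniusComplement R) (N : Subgroup G) [hN : N.Normal]
    (hKN : ¬ frobeniusKernel R ⊆ N) :
    IsFrobeniusComplement (R.map (QuotientGroup.mk' N)) ∧
      frobeniusKernel (R.map (QuotientGroup.mk' N)) = QuotientGroup.mk' N '' frobeniusKernel R := by
  obtain ⟨K, hK, hKn, hKc, hKnil⟩ := H1.FpfNilp.frobeniusKernel_nilpotent hR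
  have hfpf := H1.FrobConj.fpf_of_TI hR.2.2 hK
  have hmemK : ∀ x, x ∈ K ↔ x ∈ frobeniusKernel R := fun x => by rw [← hK]; rfl
  have hKN' : ¬ K ≤ N := by rw [← hK] at hKN; exact hKN
  -- `N ≤ K`
  have hNK : N ≤ K := by
    intro n hn
    by_contra hnK
    rw [hmemK] at hnK
    obtain ⟨hn1, g, hg⟩ := exists_conj hnK
    set r := g⁻¹ * n * g with hr
    have hrN : r ∈ N := by
      have := hN.conj_mem n hn g⁻¹
      rwa [inv_inv] at this
    have hr1 : r ≠ 1 := by
      intro h
      apply hn1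
      have : n = g * r * g⁻¹ := by rw [hr]; group
      rw [this, h]; group
    have hC := hfpf r hg hr1
    let f : K → K := fun k => ⟨(k : G) * (r * (k : G)⁻¹ * r⁻¹), mul_mem k.2 (hKn.conj_mem _ (inv_mem k.2) r)⟩
    have hinj : Function.Injective f := by
      intro k k' hkk
      have h1 : (k : G) * (r * (k : G)⁻¹ * r⁻¹) = (k' : G) * (r * (k' : G)⁻¹ * r⁻¹) := congrArg Subtype.val hkk
      have h2 : (k' : G)⁻¹ * k ∈ K ⊓ centralizer {r} := by
        refine ⟨K.mul_mem (K.inv_mem k'.2) k.2, mem_centralizer_singleton_iff.mpr ?_⟩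
        have h3 : (k' : G)⁻¹ * k = r * ((k' : G)⁻¹ * k) * r⁻¹ := by
          calc (k' : G)⁻¹ * k = (k' : G)⁻¹ * ((k : G) * (r * (k : G)⁻¹ * r⁻¹)) * (r * k * r⁻¹) := by group
            _ = (k' : G)⁻¹ * ((k' : G) * (r * (k' : G)⁻¹ * r⁻¹)) * (r * k * r⁻¹) := by rw [h1]
            _ = _ := by group
        calc (k' : G)⁻¹ * k * r = r * ((k' : G)⁻¹ * k) * r⁻¹ * r := by rw [← h3]
          _ = _ := by group
      rw [hC, mem_bot] at h2
      exact Subtype.ext (inv_mul_eq_one.mp h2).symm
    have hsurj := Finite.surjective_of_injective hinj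
    apply hKN'
    intro k hk
    obtain ⟨k', hk'⟩ := hsurj ⟨k, hk⟩
    have h1 : (k' : G) * (r * (k' : G)⁻¹ * r⁻¹) = k := congrArg Subtype.val hk'
    have h2 : (k' : G) * (r * (k' : G)⁻¹ * r⁻¹) = ((k' : G) * r * (k' : G)⁻¹) * r⁻¹ := by group
    rw [← h1, h2]
    exact mul_mem (hN.conj_mem r hrN _) (inv_mem hrN)
  set π := QuotientGroup.mk' N with hπ
  have hker : ∀ x, π x = 1 ↔ x ∈ N := fun x => by
    rw [← MonoidHom.mem_ker, QuotientGroup.ker_mk']
  haveI : (K.map π).Normal := hKn.map _ (QuotientGroup.mk'_surjective N)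
  have hRK : R ≤ normalizer (K : Set G) := by rw [normalizer_eq_top]; exact le_top
  have hKR : K ⊓ R = ⊥ := hKc.disjoint.eq_bot
  have hRne : R ≠ ⊥ := hR.1
  have hres := H82.Frob.isFrobenius (K.map π) (R.map π) (by
    rw [eq_bot_iff]
    rintro _ ⟨⟨k, hk, rfl⟩, ⟨r, hr, hrk⟩⟩
    have h1 : r⁻¹ * k ∈ N := by
      rw [← hker, map_mul, map_inv, hrk, inv_mul_cancel]
    have h2 : r ∈ K := by
      have h3 : r = k * (r⁻¹ * k)⁻¹ := by group
      rw [h3]
      exact mul_mem hk (inv_mem (hNK h1))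
    have h3 : r ∈ K ⊓ R := ⟨h2, hr⟩
    rw [hKR, mem_bot] at h3
    rw [mem_bot, ← hrk, h3, map_one]) (by
    rw [← Subgroup.map_sup, hKc.sup_eq_top, ← MonoidHom.range_eq_map, MonoidHom.range_eq_top]
    exact QuotientGroup.mk'_surjective N) (by
    intro h
    apply hKN'
    intro k hk
    have h1 : π k ∈ K.map π := mem_map_of_mem _ hk
    rw [h, mem_bot] at h1
    exact (hker k).mp h1) (by
    intro h
    apply hRne
    rw [eq_bot_iff, ← hKR]
    refine le_inf ?_ le_rfl
    intro r hr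
    have h1 : π r ∈ K.map π := by rw [h]; trivial
    obtain ⟨k, hk, hkr⟩ := h1
    have h2 : r⁻¹ * k ∈ N := by
      rw [← hker, map_mul, map_inv, hkr, inv_mul_cancel]
    have h3 : r = k * (r⁻¹ * k)⁻¹ := by group
    rw [h3]
    exact mul_mem hk (inv_mem (hNK h2))) (by
    rintro _ ⟨k, hk, rfl⟩ hk1 g hg
    obtain ⟨y, rfl⟩ := QuotientGroup.mk'_surjective N g
    by_contra hyK
    have hyK' : y ∉ frobeniusKernel R := by
      rw [← hmemK]
      intro h
      exact hyK (mem_map_of_mem _ h)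
    obtain ⟨hy1, h, hh⟩ := exists_conj hyK'
    set r := h⁻¹ * y * h with hr
    have hr1 : r ≠ 1 := by
      intro h0
      apply hy1
      have : y = h * r * h⁻¹ := by rw [hr]; group
      rw [this, h0]; group
    set k' := h⁻¹ * k * h with hk'
    have hk'K : k' ∈ K := by
      have := hKn.conj_mem k hk h⁻¹
      rwa [inv_inv] at this
    have hcomm : π r * π k' = π k' * π r := by
      rw [← map_mul, ← map_mul]
      have e1 : r * k' = h⁻¹ * (y * k) * h := by rw [hr, hk']; group
      have e2 : k' * r = h⁻¹ * (k * y) * h := by rw [hr, hk']; group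
      rw [e1, e2, map_mul, map_mul, map_mul (f := π) (h⁻¹ * (k * y)), map_mul (f := π) h⁻¹ (k * y)]
      have e3 : π (y * k) = π (k * y) := by
        rw [map_mul, map_mul]; exact hg
      rw [e3]
    have hzr : ∀ a ∈ zpowers r, a ≠ 1 → K ⊓ centralizer {a} = ⊥ := fun a ha ha1 =>
      hfpf a ((zpowers_le.mpr hh) ha) ha1
    have hzK : zpowers r ≤ normalizer (K : Set G) := by rw [normalizer_eq_top]; exact le_top
    have hcop := H1.FrobSyl.coprime_card (zpowers r) K hzK hzr
    obtain ⟨c, hc, hkc⟩ := H1.Coprime.exists_fixed_of_coset_fixed (zpowers r) K hzK hcop (Or.inr inferInstance) N hNK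
      (by rw [normalizer_eq_top]; exact le_top) (by rw [normalizer_eq_top]; exact le_top) k' hk'K (by
      intro a ha
      obtain ⟨i, rfl⟩ := mem_zpowers_iff.mp ha
      rw [← hker, map_mul, map_mul, map_mul, map_inv, map_inv, map_zpow]
      have h1 : Commute (π r ^ i) (π k') := (show Commute (π r) (π k') from hcomm).zpow_left i
      rw [h1.eq]; group)
    have hc1 : c = 1 := by
      have h1 : c ∈ K ⊓ centralizer {r} := by
        refine ⟨hc.1, mem_centralizer_singleton_iff.mpr ?_⟩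
        exact (mem_centralizer_iff.mp hc.2 r (mem_zpowers r)).symm
      rw [hfpf r hh hr1, mem_bot] at h1
      exact h1
    rw [hc1, mul_one] at hkc
    apply hk1
    rw [hker]
    have h1 : k = h * k' * h⁻¹ := by rw [hk']; group
    rw [h1]
    apply hN.conj_mem
    have := inv_mem hkc
    rwa [inv_inv] at this)
  refine ⟨hres.1, ?_⟩
  rw [hres.2, ← hK]
  rfl

end H65.FrobQuot
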