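import Cfsg.Agent.Lib.H59.G8e
import Cfsg.Agent.Lib.H65.G8P

set_option autoImplicit false
set_option linter.unusedSectionVars false
set_option linter.style.haveILetI false

/-! T-GW8: the local situation `Loc` around a central involution. -/

namespace H65.G8L

open Cfsg Subgroup H28.Cj H28.RelSyl H28.RelHall H28.RelCore H4.GW H39.G8 H65.GWP2 H65.G8P

universe u

/-! ### dihedral groups -/

section dn

open DihedralGroup

variable {n : ℕ}

theorem zm_two (hn : 4 ≤ n) {i j : ZMod n} (hi : i + i = 0) (hi0 : i ≠ 0) (hj : j + j = 0)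
    (hj0 : j ≠ 0) : i = j := by
  haveI : NeZero n := ⟨by omega⟩
  have key : ∀ k : ZMod n, k + k = 0 → k ≠ 0 → k.val + k.val = n := by
    intro k hk hk0
    have h1 := ZMod.val_lt k
    have h2 : k.val ≠ 0 := by rw [Ne, ZMod.val_eq_zero]; exact hk0
    have h3 : (k.val + k.val) % n = 0 := by
      rw [← ZMod.val_add, hk, ZMod.val_zero]
    have h4 := Nat.dvd_of_mod_eq_zero h3
    obtain ⟨c, hc⟩ := h4
    have hc1 : c = 1 := by
      have h5 : 0 < c := by
        rcases Nat.eq_zero_or_pos c with h | h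
        · rw [h, mul_zero] at hc; omega
        · exact h
      have h6 : c < 2 := by
        by_contra h
        push Not at h
        have : n * 2 ≤ n * c := Nat.mul_le_mul_left _ h
        omega
      omega
    rw [hc, hc1, mul_one]
  apply ZMod.val_injective
  have := key i hi hi0
  have := key j hj hj0
  omega

theorem zm_ne (hn : 4 ≤ n) : (2 : ZMod n) ≠ 0 := by
  intro h
  have h1 : ((2 : ℕ) : ZMod n) = 0 := by exact_mod_cast h
  rw [ZMod.natCast_eq_zero_iff] at h1
  have := Nat.le_of_dvd (by norm_num) h1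
  omega

theorem zm_half (hn : 4 ≤ n) (i : ZMod n) : ∃ k : ZMod n, i = k + k ∨ i = 1 + (k + k) := by
  haveI : NeZero n := ⟨by omega⟩
  rcases Nat.even_or_odd' i.val with ⟨c, hc | hc⟩
  · refine ⟨(c : ZMod n), Or.inl ?_⟩
    have : ((i.val : ℕ) : ZMod n) = i := ZMod.natCast_zmod_val i
    rw [← this, hc]; push_cast; ring
  · refine ⟨(c : ZMod n), Or.inr ?_⟩
    have : ((i.val : ℕ) : ZMod n) = i := ZMod.natCast_zmod_val i
    rw [← this, hc]; push_cast; ring

theorem zm_odd (hn : 4 ≤ n) (he : Even n) (k : ZMod n) : k + k ≠ 1 := by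
  haveI : NeZero n := ⟨by omega⟩
  intro h
  have h1 : ((k.val + k.val : ℕ) : ZMod n) = ((1 : ℕ) : ZMod n) := by
    push_cast
    rw [ZMod.natCast_zmod_val]; exact h
  rw [ZMod.natCast_eq_natCast_iff] at h1
  have h2 := Nat.ModEq.of_dvd (even_iff_two_dvd.1 he) h1
  unfold Nat.ModEq at h2
  omega

theorem dn_facts (hn : 4 ≤ n) (he : Even n) {t : DihedralGroup n} (ht : t ≠ 1)
    (htc : ∀ x, x * t = t * x) :
    (sr 0 : DihedralGroup n) * sr 0 = 1 ∧ (sr 0 : DihedralGroup n) ≠ 1 ∧ sr 0 ≠ t ∧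
    (sr 1 : DihedralGroup n) * sr 1 = 1 ∧ (sr 1 : DihedralGroup n) ≠ 1 ∧ sr 1 ≠ t ∧
    (∀ x : DihedralGroup n, x ∈ closure ({sr 0, sr 1} : Set (DihedralGroup n))) ∧
    (∀ x : DihedralGroup n, x * x = 1 → x ≠ 1 → x ≠ t →
      ∃ g, g * sr 0 * g⁻¹ = x ∨ g * sr 1 * g⁻¹ = x) ∧
    (∀ x : DihedralGroup n, x * x = 1 ∨ (sr 0 * x * (sr 0)⁻¹ * x = 1 ∧
      sr 1 * x * (sr 1)⁻¹ * x = 1)) ∧
    (¬ ∃ g : DihedralGroup n, g * sr 0 * g⁻¹ = sr 1) := by
  haveI : NeZero n := ⟨by omega⟩
  have hsr : ∀ i : ZMod n, (sr i : DihedralGroup n) ≠ 1 := by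
    intro i h; rw [one_def] at h; cases h
  -- t is a rotation
  obtain ⟨i, rfl, hi, hi0⟩ : ∃ i : ZMod n, t = r i ∧ i + i = 0 ∧ i ≠ 0 := by
    cases t with
    | r i =>
      refine ⟨i, rfl, ?_, ?_⟩
      · have := htc (sr 0)
        rw [sr_mul_r, r_mul_sr] at this
        have h1 := sr.inj this
        have : (i : ZMod n) = -i := by simpa using h1
        linear_combination this
      · rintro rfl
        exact ht (one_def).symm
    | sr i =>
      exfalso
      have := htc (r 1)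
      rw [sr_mul_r, r_mul_sr] at this
      have h1 := sr.inj this
      apply zm_ne hn
      linear_combination -h1
  refine ⟨?_, hsr 0, ?_, ?_, hsr 1, ?_, ?_, ?_, ?_, ?_⟩
  · rw [sr_mul_sr, sub_self, one_def]
  · intro h; cases h
  · rw [sr_mul_sr, sub_self, one_def]
  · intro h; cases h
  · intro x
    have h0 : (sr 0 : DihedralGroup n) ∈ closure ({sr 0, sr 1} : Set (DihedralGroup n)) :=
      subset_closure (by simp)
    have h1 : (sr 1 : DihedralGroup n) ∈ closure ({sr 0, sr 1} : Set (DihedralGroup n)) :=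
      subset_closure (by simp)
    have hr1 : (r 1 : DihedralGroup n) ∈ closure ({sr 0, sr 1} : Set (DihedralGroup n)) := by
      have := mul_mem h0 h1
      rwa [sr_mul_sr, sub_zero] at this
    have hr : ∀ j : ZMod n, (r j : DihedralGroup n) ∈ closure ({sr 0, sr 1} : Set (DihedralGroup n)) := by
      intro j
      have := pow_mem hr1 j.val
      rw [r_one_pow, ZMod.natCast_zmod_val] at this
      exact this
    cases x with
    | r j => exact hr j
    | sr j =>
      have := mul_mem h0 (hr j)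
      rwa [sr_mul_r, zero_add] at this
  · intro x hx hx1 hxt
    cases x with
    | r j =>
      exfalso
      rw [r_mul_r, one_def] at hx
      have h1 := r.inj hx
      have h2 : j ≠ 0 := by rintro rfl; exact hx1 (one_def).symm
      exact hxt (by rw [zm_two hn h1 h2 hi hi0])
    | sr j =>
      obtain ⟨k, hk | hk⟩ := zm_half hn j
      · refine ⟨r (-k), Or.inl ?_⟩
        rw [r_mul_sr, inv_r, sr_mul_r]
        congr 1
        rw [hk]; ring
      · refine ⟨r (-k), Or.inr ?_⟩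
        rw [r_mul_sr, inv_r, sr_mul_r]
        congr 1
        rw [hk]; ring
  · intro x
    cases x with
    | r j =>
      right
      constructor
      · rw [sr_mul_r, inv_sr, sr_mul_sr, r_mul_r, one_def]; congr 1; ring
      · rw [sr_mul_r, inv_sr, sr_mul_sr, r_mul_r, one_def]; congr 1; ring
    | sr j => left; rw [sr_mul_sr, sub_self, one_def]
  · rintro ⟨g, hg⟩
    cases g with
    | r k =>
      rw [r_mul_sr, inv_r, sr_mul_r] at hg
      have h1 := sr.inj hg
      apply zm_odd hn he (-k)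
      rw [← h1]; ring
    | sr k =>
      rw [sr_mul_sr, inv_sr, r_mul_sr] at hg
      have h1 := sr.inj hg
      apply zm_odd hn he k
      rw [← h1]; ring

end dn

variable {G : Type u} [Group G] [Finite G]

theorem sub_facts {S : Subgroup G} {n : ℕ} (hn : 4 ≤ n) (he : Even n) (e : S ≃* DihedralGroup n)
    {t : G} (htS : t ∈ S) (ht1 : t ≠ 1) (htc : ∀ x ∈ S, x * t = t * x) :
    ∃ s ∈ S, ∃ s' ∈ S, s * s = 1 ∧ s ≠ 1 ∧ s ≠ t ∧ s' * s' = 1 ∧ s' ≠ 1 ∧ s' ≠ t ∧
      S = closure ({s, s'} : Set G) ∧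
      (∀ x ∈ S, x * x = 1 → x ≠ 1 → x ≠ t → ∃ g ∈ S, g * s * g⁻¹ = x ∨ g * s' * g⁻¹ = x) ∧
      (∀ x ∈ S, x * x = 1 ∨ (s * x * s⁻¹ * x = 1 ∧ s' * x * s'⁻¹ * x = 1)) ∧
      (¬ ∃ g ∈ S, g * s * g⁻¹ = s') := by
  have h1 : e ⟨t, htS⟩ ≠ 1 := by
    intro h
    rw [map_eq_one_iff e e.injective] at h
    exact ht1 (congrArg Subtype.val h)
  have h2 : ∀ x, x * e ⟨t, htS⟩ = e ⟨t, htS⟩ * x := by
    intro x
    obtain ⟨y, rfl⟩ := e.surjective x
    rw [← map_mul, ← map_mul]
    congr 1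
    exact Subtype.ext (htc y y.2)
  obtain ⟨a1, a2, a3, b1, b2, b3, c1, c2, c3, c4⟩ := dn_facts hn he h1 h2
  set s0 : S := e.symm (DihedralGroup.sr 0) with hs0
  set s1 : S := e.symm (DihedralGroup.sr 1) with hs1
  have es0 : e s0 = DihedralGroup.sr 0 := e.apply_symm_apply _
  have es1 : e s1 = DihedralGroup.sr 1 := e.apply_symm_apply _
  refine ⟨s0, s0.2, s1, s1.2, ?_, ?_, ?_, ?_, ?_, ?_, ?_, ?_, ?_, ?_⟩
  · have : s0 * s0 = 1 := e.injective (by rw [map_mul, es0, map_one]; exact a1)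
    exact congrArg Subtype.val this
  · intro h
    have : s0 = 1 := Subtype.ext h
    rw [this, map_one] at es0
    exact a2 es0.symm
  · intro h
    apply a3
    rw [← es0]
    congr 1
    exact Subtype.ext h
  · have : s1 * s1 = 1 := e.injective (by rw [map_mul, es1, map_one]; exact b1)
    exact congrArg Subtype.val this
  · intro h
    have : s1 = 1 := Subtype.ext h
    rw [this, map_one] at es1
    exact b2 es1.symm
  · intro h
    apply b3
    rw [← es1]
    congr 1
    exact Subtype.ext h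
  · apply le_antisymm
    · intro x hx
      have h3 := c1 (e ⟨x, hx⟩)
      have h4 : closure ({DihedralGroup.sr 0, DihedralGroup.sr 1} : Set (DihedralGroup n)) ≤
          ((closure ({(s0 : G), (s1 : G)} : Set G)).comap S.subtype).comap e.symm.toMonoidHom := by
        rw [closure_le]
        rintro y (rfl | rfl)
        · exact subset_closure (by simp [hs0])
        · exact subset_closure (by simp [hs1])
      have h5 := h4 h3
      have h6 : ((e.symm (e ⟨x, hx⟩) : S) : G) ∈ closure ({(s0 : G), (s1 : G)} : Set G) := h5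
      rwa [e.symm_apply_apply] at h6
    · rw [closure_le]
      rintro y (rfl | rfl)
      · exact s0.2
      · exact s1.2
  · intro x hx hxx hx1 hxt
    obtain ⟨g, hg⟩ := c2 (e ⟨x, hx⟩) (by
      rw [← map_mul]
      have : (⟨x, hx⟩ : S) * ⟨x, hx⟩ = 1 := Subtype.ext hxx
      rw [this, map_one]) (by
      intro h
      rw [map_eq_one_iff e e.injective] at h
      exact hx1 (congrArg Subtype.val h)) (by
      intro h
      exact hxt (congrArg Subtype.val (e.injective h)))
    obtain ⟨g, rfl⟩ := e.surjective g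
    refine ⟨g, g.2, ?_⟩
    rcases hg with hg | hg
    · left
      rw [← es0, ← map_inv, ← map_mul, ← map_mul] at hg
      exact congrArg Subtype.val (e.injective hg)
    · right
      rw [← es1, ← map_inv, ← map_mul, ← map_mul] at hg
      exact congrArg Subtype.val (e.injective hg)
  · intro x hx
    rcases c3 (e ⟨x, hx⟩) with h | ⟨h, h'⟩
    · left
      rw [← map_mul, ← map_one e] at h
      exact congrArg Subtype.val (e.injective h)
    · right
      rw [← es0, ← map_inv, ← map_mul, ← map_mul, ← map_mul, ← map_one e] at h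
      rw [← es1, ← map_inv, ← map_mul, ← map_mul, ← map_mul, ← map_one e] at h'
      exact ⟨congrArg Subtype.val (e.injective h), congrArg Subtype.val (e.injective h')⟩
  · rintro ⟨g, hg, h⟩
    apply c4
    refine ⟨e ⟨g, hg⟩, ?_⟩
    rw [← es0, ← es1, ← map_inv, ← map_mul, ← map_mul]
    congr 1
    exact Subtype.ext h

/-- the Sylow subgroup of `C(t)` -/
theorem exists_sylow (d8 : H59.G8.D8 G) {t : G} (ht : Invol t) :
    ∃ S : Sylow 2 G, t ∈ (S : Subgroup G) ∧ (∀ x ∈ (S : Subgroup G), x * t = t * x) ∧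
      IsSyl 2 (S : Subgroup G) (Ce t) ∧
      ∃ n : ℕ, 4 ≤ n ∧ Nonempty ((S : Subgroup G) ≃* DihedralGroup n) := by
  haveI : Fact (Nat.Prime 2) := ⟨Nat.prime_two⟩
  obtain ⟨T, n, hn, ⟨e⟩⟩ := d8.dih
  have hidx := d8.idx ht.1 ht.2
  have hot : orderOf t = 2 := orderOf_eq_prime (by rw [pow_two]; exact ht.1) ht.2
  have htC : zpowers t ≤ Ce t := by
    rw [zpowers_le, mem_Ce]
  have htp : IsPGroup 2 (zpowers t) := by
    apply IsPGroup.of_card (n := 1)
    rw [Nat.card_zpowers, hot, pow_one]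
  obtain ⟨P, hP, htP⟩ := exists_isSyl_ge htp htC
  have hP' : IsSyl 2 P ⊤ := by
    refine ⟨le_top, hP.isPGroup, ?_⟩
    rw [relIndex_top_right, ← relIndex_mul_index hP.le]
    intro hd
    rcases (Nat.Prime.dvd_mul Nat.prime_two).1 hd with h1 | h1
    · exact hP.not_dvd h1
    · exact (Nat.not_even_iff_odd.2 hidx) (even_iff_two_dvd.2 h1)
  obtain ⟨S, hS⟩ := isSyl_top_iff_exists.1 hP'
  refine ⟨S, ?_, ?_, ?_, n, hn, ⟨(S.equiv T).trans e⟩⟩
  · rw [hS]; exact htP (mem_zpowers t)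
  · intro x hx
    rw [hS] at hx
    exact (mem_Ce.1 (hP.le hx)).symm
  · rw [hS]; exact hP

/-- `Ce t = U t ⊔ S` elementwise -/
theorem Ce_decomp (d8 : H59.G8.D8 G) {t : G} (ht : Invol t) {S : Subgroup G}
    (hS : IsSyl 2 S (Ce t)) : Ce t = U t ⊔ S := by
  haveI : Fact (Nat.Prime 2) := ⟨Nat.prime_two⟩
  obtain ⟨k, hk⟩ := H59.G8.card_Ce d8.dh ht.1 ht.2
  have hle : U t ⊔ S ≤ Ce t := sup_le (oc_le _) hS.le
  apply le_antisymm _ hle
  have h1 : (U t ⊔ S).relIndex (Ce t) ∣ 2 ^ k := by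
    have h2 : (U t).relIndex (Ce t) = 2 ^ k := by
      have h3 := relIndex_mul_card (oc_le (Ce t))
      have h4 : 0 < Nat.card (U t) := Nat.card_pos
      exact Nat.eq_of_mul_eq_mul_right h4 (h3.trans hk)
    rw [← h2]
    exact relIndex_dvd_of_le_left _ le_sup_left
  have h2 : (U t ⊔ S).relIndex (Ce t) ∣ S.relIndex (Ce t) := relIndex_dvd_of_le_left _ le_sup_right
  have h3 : (U t ⊔ S).relIndex (Ce t) = 1 := by
    obtain ⟨j, hj, hj'⟩ := (Nat.dvd_prime_pow Nat.prime_two).1 h1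
    rcases Nat.eq_zero_or_pos j with h | h
    · rw [hj', h, pow_zero]
    · exfalso
      apply hS.not_dvd
      refine dvd_trans ?_ h2
      rw [hj']
      exact dvd_pow_self 2 (by omega)
  exact relIndex_eq_one.1 h3

/-- **the local situation around an involution** -/
theorem exists_loc (d8 : H59.G8.D8 G) (base : Base8 G)
    (hmx : ∀ z : G, Invol z → ∀ K : Subgroup G, K ≠ ⊤ → Ce z ≤ K → K = Ce z)
    {t : G} (ht : Invol t) :
    ∃ (S : Sylow 2 G) (s s' : G), Loc G t s s' ∧ (¬ ∃ g ∈ Ce t, g * s * g⁻¹ = s') ∧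
      t ∈ (S : Subgroup G) ∧ (∀ x ∈ (S : Subgroup G), x * t = t * x) ∧
      (S : Subgroup G) = closure ({s, s'} : Set G) ∧ Ce t = U t ⊔ S := by
  haveI : Fact (Nat.Prime 2) := ⟨Nat.prime_two⟩
  obtain ⟨S, htS, htc, hSyl, n, hn, ⟨e⟩⟩ := exists_sylow d8 ht
  have hcard : Nat.card (S : Subgroup G) = 2 * n := by
    rw [Nat.card_congr e.toEquiv, DihedralGroup.nat_card]
  have he : Even n := by
    obtain ⟨k, hk⟩ := IsPGroup.iff_card.1 S.isPGroup'
    rw [hcard] at hk
    obtain ⟨j, rfl⟩ : ∃ j, k = j + 2 := by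
      refine ⟨k - 2, ?_⟩
      have : 2 ≤ k := by
        by_contra h
        push Not at h
        interval_cases k <;> omega
      omega
    have : n = 2 * 2 ^ j := by
      have : 2 * n = 2 * (2 * 2 ^ j) := by rw [hk]; ring
      omega
    rw [this]
    exact even_two_mul _
  obtain ⟨s, hsS, s', hsS', a1, a2, a3, b1, b2, b3, c1, c2, c3, c4⟩ :=
    sub_facts hn he e htS ht.2 htc
  have hdec := Ce_decomp d8 ht hSyl
  have hSC : (S : Subgroup G) ≤ Ce t := hSyl.le
  have hel : ∀ x ∈ Ce t, ∃ u ∈ U t, ∃ σ ∈ (S : Subgroup G), x = u * σ := by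
    intro x hx
    rw [hdec] at hx
    exact (H28.Sup.mem_sup_iff (hSC.trans (le_norm_oc (Ce t)))).1 hx
  have hnU : ∀ g ∈ Ce t, ∀ u ∈ U t, g * u * g⁻¹ ∈ U t := fun g hg u hu =>
    (mem_normalizer_iff.1 (le_norm_oc (Ce t) hg) u).1 hu
  have hmxI : ∀ K : Subgroup G, K ≠ ⊤ → Ce t ≤ K → K = Ce t := hmx t ht
  have hdih : ∀ v ∈ (S : Subgroup G), (∀ x ∈ (S : Subgroup G), x * x = 1 ∨ v * x * v⁻¹ * x = 1) →
      ∀ g ∈ Ce t, g * g ∈ U t ∨ v * g * v⁻¹ * g ∈ U t := by
    intro v hv h g hg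
    obtain ⟨u, hu, σ, hσ, rfl⟩ := hel g hg
    rcases h σ hσ with h1 | h1
    · left
      have e1 : u * σ * (u * σ) = u * (σ * u * σ⁻¹) * (σ * σ) := by group
      rw [e1, h1, mul_one]
      exact mul_mem hu (hnU σ (hSC hσ) u hu)
    · right
      have e1 : v * (u * σ) * v⁻¹ * (u * σ) =
          (v * u * v⁻¹) * ((v * σ * v⁻¹) * u * (v * σ * v⁻¹)⁻¹) * ((v * σ * v⁻¹) * σ) := by group
      rw [e1, h1, mul_one]
      have h2 : v * σ * v⁻¹ ∈ Ce t :=
        mul_mem (mul_mem (hSC hv) (hSC hσ)) (inv_mem (hSC hv))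
      exact mul_mem (hnU v (hSC hv) u hu) (hnU _ h2 u hu)
  refine ⟨S, s, s', ?_, ?_, htS, htc, c1, hdec⟩
  · exact
      { simple := base.simple
        It := ht
        Is := ⟨a1, a2⟩
        Is' := ⟨b1, b2⟩
        ts := (htc s hsS).symm
        ts' := (htc s' hsS').symm
        nts := a3
        nts' := b3
        conj := fun v hv => base.conj t v ht hv
        mx := hmxI
        gen := by
          intro K h1 h2 h3
          rw [hdec]
          refine sup_le h1 ?_
          rw [c1, closure_le]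
          rintro y (rfl | rfl)
          · exact h2
          · exact h3
        cls := by
          intro v hv hvt hc
          have hov : orderOf v = 2 := orderOf_eq_prime (by rw [pow_two]; exact hv.1) hv.2
          have hvp : IsPGroup 2 (zpowers v) := by
            apply IsPGroup.of_card (n := 1)
            rw [Nat.card_zpowers, hov, pow_one]
          have hvC : zpowers v ≤ Ce t := by rw [zpowers_le, mem_Ce]; exact hc
          obtain ⟨h, hh, hle⟩ := hSyl.exists_conj_le hvp hvC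
          have h1 : h * v * h⁻¹ ∈ (S : Subgroup G) := hle (conj_mem_cj.2 (mem_zpowers v))
          have h2 : Iv (h * v * h⁻¹) := hv.conj h
          have h3 : h * v * h⁻¹ ≠ t := by
            intro h4
            apply hvt
            have h5 : v = h⁻¹ * t * h := by rw [← h4]; group
            rw [h5, mul_assoc, mem_Ce.1 hh]; group
          obtain ⟨g, hg, hgs⟩ := c2 _ h1 h2.1 h2.2 h3
          refine ⟨h⁻¹ * g, mul_mem (inv_mem hh) (hSC hg), ?_⟩
          rcases hgs with hgs | hgs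
          · left
            calc h⁻¹ * g * s * (h⁻¹ * g)⁻¹ = h⁻¹ * (g * s * g⁻¹) * h := by group
              _ = v := by rw [hgs]; group
          · right
            calc h⁻¹ * g * s' * (h⁻¹ * g)⁻¹ = h⁻¹ * (g * s' * g⁻¹) * h := by group
              _ = v := by rw [hgs]; group
        e8 := by
          intro a b c ha hb hc hab h1 h2 h3
          rcases d8.dh.self_cent ha.1 hb.1 ha.2 hb.2 hab h1 (c := c) (k := 1)
            (by rw [pow_one, pow_two]; exact hc.1) h2.symm h3.symm with h | h | h | h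
          · exact absurd h hc.2
          · exact Or.inl h
          · exact Or.inr (Or.inl h)
          · exact Or.inr (Or.inr h)
        dih := hdih s hsS (fun x hx => (c3 x hx).imp_right (fun h => h.1))
        dih' := hdih s' hsS' (fun x hx => (c3 x hx).imp_right (fun h => h.2)) }
  · rintro ⟨g, hg, hgs⟩
    obtain ⟨u, hu, σ, hσ, rfl⟩ := hel g hg
    apply c4
    refine ⟨σ, hσ, ?_⟩
    set v := σ * s * σ⁻¹ with hv
    have hvS : v ∈ (S : Subgroup G) := mul_mem (mul_mem hσ hsS) (inv_mem hσ)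
    have h1 : u * v * u⁻¹ = s' := by rw [← hgs, hv]; group
    have h2 : s' * v⁻¹ ∈ U t := by
      have h3 : s' * v⁻¹ = u * (v * u⁻¹ * v⁻¹) := by rw [← h1]; group
      rw [h3]
      exact mul_mem hu (hnU v (hSC hvS) _ (inv_mem hu))
    have h3 : s' * v⁻¹ ∈ (S : Subgroup G) := mul_mem hsS' (inv_mem hvS)
    have h4 : s' * v⁻¹ = 1 := by
      obtain ⟨k, hk⟩ := S.isPGroup' ⟨_, h3⟩
      have hk' : (s' * v⁻¹) ^ 2 ^ k = 1 := congrArg Subtype.val hk
      have ho := odd_orderOf_of_mem (odd_oc (Ce t)) h2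
      have hd := orderOf_dvd_of_pow_eq_one hk'
      obtain ⟨j, hj, hj'⟩ := (Nat.dvd_prime_pow Nat.prime_two).1 hd
      rcases Nat.eq_zero_or_pos j with h | h
      · rw [h, pow_zero] at hj'; exact orderOf_eq_one_iff.1 hj'
      · exfalso
        rw [hj'] at ho
        exact (Nat.not_even_iff_odd.2 ho) (Nat.even_pow.2 ⟨even_two, by omega⟩)
    exact (mul_inv_eq_one.1 h4).symm

/-- `Loc` is invariant under conjugation by `C(t)` -/
theorem _root_.H65.G8P.Loc.conjC {t s s' : G} (h : Loc G t s s') {g : G} (hg : g ∈ Ce t) :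
    Loc G t (g * s * g⁻¹) (g * s' * g⁻¹) := by
  have hgt : g * t * g⁻¹ = t := by rw [← mem_Ce.1 hg, mul_inv_cancel_right]
  have hgC : cj g (Ce t) = Ce t := cj_eq_self_of_mem hg
  have hgU : cj g (U t) = U t := mem_normalizer_iff_cj.1 (le_norm_oc (Ce t) hg)
  have hcomm : ∀ v, t * v = v * t → t * (g * v * g⁻¹) = (g * v * g⁻¹) * t := by
    intro v hv
    nth_rewrite 1 [← hgt]
    nth_rewrite 2 [← hgt]
    calc g * t * g⁻¹ * (g * v * g⁻¹) = g * (t * v) * g⁻¹ := by group
      _ = g * (v * t) * g⁻¹ := by rw [hv]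
      _ = g * v * g⁻¹ * (g * t * g⁻¹) := by group
  have hne : ∀ v, v ≠ t → g * v * g⁻¹ ≠ t := by
    intro v hv h1
    apply hv
    rw [← hgt] at h1
    exact mul_left_cancel (mul_right_cancel h1)
  have hd : ∀ v, (∀ y ∈ Ce t, y * y ∈ U t ∨ v * y * v⁻¹ * y ∈ U t) →
      ∀ y ∈ Ce t, y * y ∈ U t ∨ (g * v * g⁻¹) * y * (g * v * g⁻¹)⁻¹ * y ∈ U t := by
    intro v hv y hy
    have h1 : g⁻¹ * y * g ∈ Ce t := mul_mem (mul_mem (inv_mem hg) hy) hg
    have hU' : ∀ x, g⁻¹ * x * g ∈ U t → x ∈ U t := by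
      intro x hx
      have : x ∈ cj g (U t) := mem_cj.2 hx
      rwa [hgU] at this
    rcases hv _ h1 with h2 | h2
    · left
      apply hU'
      have : g⁻¹ * (y * y) * g = g⁻¹ * y * g * (g⁻¹ * y * g) := by group
      rw [this]; exact h2
    · right
      apply hU'
      have : g⁻¹ * ((g * v * g⁻¹) * y * (g * v * g⁻¹)⁻¹ * y) * g =
          v * (g⁻¹ * y * g) * v⁻¹ * (g⁻¹ * y * g) := by group
      rw [this]; exact h2
  exact
    { simple := h.simple, It := h.It, Is := h.Is.conj g, Is' := h.Is'.conj g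
      ts := hcomm s h.ts, ts' := hcomm s' h.ts', nts := hne s h.nts, nts' := hne s' h.nts'
      conj := h.conj, mx := h.mx
      gen := by
        intro K h1 h2 h3
        have h4 : Ce t ≤ cj g⁻¹ K := by
          apply h.gen
          · rw [← cj_inv_cj g (U t), hgU]; exact cj_le_cj.2 h1
          · rw [mem_cj, inv_inv]; exact h2
          · rw [mem_cj, inv_inv]; exact h3
        rw [← hgC]
        exact cj_le_iff.2 h4
      cls := by
        intro v hv h1 h2
        obtain ⟨k, hk, h3⟩ := h.cls v hv h1 h2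
        refine ⟨k * g⁻¹, mul_mem hk (inv_mem hg), ?_⟩
        rcases h3 with h3 | h3
        · left; rw [← h3]; group
        · right; rw [← h3]; group
      e8 := h.e8
      dih := hd s h.dih, dih' := hd s' h.dih' }

/-- `Loc` with a prescribed `s` -/
theorem exists_loc' (d8 : H59.G8.D8 G) (base : Base8 G)
    (hmx : ∀ z : G, Invol z → ∀ K : Subgroup G, K ≠ ⊤ → Ce z ≤ K → K = Ce z)
    {t s : G} (ht : Invol t) (hs : Invol s) (hst : s ≠ t) (hc : t * s = s * t) :
    ∃ (S : Sylow 2 G) (s' : G), Loc G t s s' ∧ (¬ ∃ g ∈ Ce t, g * s * g⁻¹ = s') ∧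
      t ∈ (S : Subgroup G) ∧ (∀ x ∈ (S : Subgroup G), x * t = t * x) ∧
      (S : Subgroup G) = closure ({s, s'} : Set G) ∧ Ce t = U t ⊔ S := by
  obtain ⟨S, s0, s1, Lc, hn, htS, htc, hcl, hdec⟩ := exists_loc d8 base hmx ht
  obtain ⟨g, hg, hgs⟩ := Lc.cls s hs hst hc
  have hgt : g * t * g⁻¹ = t := by rw [← mem_Ce.1 hg, mul_inv_cancel_right]
  have key : ∀ a b : G, Loc G t a b → (¬ ∃ g ∈ Ce t, g * a * g⁻¹ = b) →
      (S : Subgroup G) = closure ({a, b} : Set G) → g * a * g⁻¹ = s →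
      ∃ (S : Sylow 2 G) (s' : G), Loc G t s s' ∧ (¬ ∃ g ∈ Ce t, g * s * g⁻¹ = s') ∧
      t ∈ (S : Subgroup G) ∧ (∀ x ∈ (S : Subgroup G), x * t = t * x) ∧
      (S : Subgroup G) = closure ({s, s'} : Set G) ∧ Ce t = U t ⊔ S := by
    intro a b Lab hab hclab hga
    have hS' : ((g • S : Sylow 2 G) : Subgroup G) = H28.Cj.cj g (S : Subgroup G) := rfl
    refine ⟨g • S, g * b * g⁻¹, hga ▸ Lab.conjC hg, ?_, ?_, ?_, ?_, ?_⟩
    · rintro ⟨k, hk, h1⟩
      apply hab
      refine ⟨g⁻¹ * k * g, mul_mem (mul_mem (inv_mem hg) hk) hg, ?_⟩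
      calc g⁻¹ * k * g * a * (g⁻¹ * k * g)⁻¹ = g⁻¹ * (k * (g * a * g⁻¹) * k⁻¹) * g := by group
        _ = b := by rw [hga, h1]; group
    · rw [hS', mem_cj]
      have : g⁻¹ * t * g = t := by
        rw [mul_assoc, mem_Ce.1 hg, inv_mul_cancel_left]
      rw [this]; exact htS
    · intro x hx
      rw [hS', mem_cj] at hx
      have h1 := htc _ hx
      calc x * t = g * ((g⁻¹ * x * g) * (g⁻¹ * t * g)) * g⁻¹ := by group
        _ = g * ((g⁻¹ * x * g) * t) * g⁻¹ := by
            rw [show g⁻¹ * t * g = t by rw [mul_assoc, mem_Ce.1 hg, inv_mul_cancel_left]]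
        _ = g * (t * (g⁻¹ * x * g)) * g⁻¹ := by rw [h1]
        _ = (g * t * g⁻¹) * x := by group
        _ = t * x := by rw [hgt]
    · rw [hS', hclab, ← hga]
      show (closure ({a, b} : Set G)).map (MulAut.conj g).toMonoidHom = _
      rw [MonoidHom.map_closure]
      congr 1
      ext y
      simp only [Set.image_pair, MulEquiv.toMonoidHom_eq_coe, MonoidHom.coe_coe, MulAut.conj_apply]
    · rw [hS']
      calc Ce t = cj g (Ce t) := (cj_eq_self_of_mem hg).symm
        _ = cj g (U t ⊔ S) := by rw [← hdec]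
        _ = cj g (U t) ⊔ cj g S := cj_sup _ _ _
        _ = U t ⊔ cj g S := by rw [mem_normalizer_iff_cj.1 (le_norm_oc (Ce t) hg)]
  rcases hgs with h | h
  · exact key s0 s1 Lc hn hcl h
  · refine key s1 s0 Lc.symm ?_ (by rw [hcl, Set.pair_comm]) h
    rintro ⟨k, hk, h1⟩
    apply hn
    refine ⟨k⁻¹, inv_mem hk, ?_⟩
    rw [← h1]; group

end H65.G8L
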