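import Mathlib

set_option autoImplicit false

/-! Pairings between finite groups with values in a cyclic group. -/

namespace H65.Pairing

theorem index_ker_le {A B M : Type*} [Group A] [Group B] [Finite A] [Finite B] [CommGroup M]
    (ι : M →* ℂˣ) (hι : Function.Injective ι) (f : A →* (B →* M)) (N : Subgroup B) [N.Normal]
    (hN : ∀ b, b ∈ N ↔ ∀ a, f a b = 1) : f.ker.index ≤ N.index := by
  classical
  have hcomm : ∀ x y : B ⧸ N, x * y = y * x := by
    intro x y
    induction x using QuotientGroup.induction_on with
    | H x =>
      induction y using QuotientGroup.induction_on with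
      | H y =>
        rw [← QuotientGroup.mk_mul, ← QuotientGroup.mk_mul, QuotientGroup.eq, hN]
        intro a
        simp only [map_mul, map_inv]
        rw [mul_comm (f a x) (f a y)]
        group
  let _ : CommGroup (B ⧸ N) := { (inferInstance : Group (B ⧸ N)) with mul_comm := hcomm }
  have hker : ∀ g : f.range, N ≤ (g : B →* M).ker := by
    rintro ⟨g, a, rfl⟩ b hb
    exact (hN b).mp hb a
  let F : f.range → (B ⧸ N →* ℂˣ) := fun g => ι.comp (QuotientGroup.lift N (g : B →* M) (hker g))
  have hF : Function.Injective F := by
    intro g g' h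
    apply Subtype.ext
    ext b
    have h1 : F g (QuotientGroup.mk b) = F g' (QuotientGroup.mk b) := by rw [h]
    apply hι
    simpa [F] using h1
  rw [Subgroup.index_ker]
  have : Finite (B ⧸ N →* ℂˣ) := by
    have : NeZero (Monoid.exponent (B ⧸ N)) := inferInstance
    exact Nat.finite_of_card_ne_zero (by
      rw [CommGroup.card_monoidHom_of_hasEnoughRootsOfUnity]
      exact Nat.card_pos.ne')
  calc Nat.card f.range ≤ Nat.card (B ⧸ N →* ℂˣ) := Nat.card_le_card_of_injective F hF
    _ = Nat.card (B ⧸ N) := CommGroup.card_monoidHom_of_hasEnoughRootsOfUnity _ _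
    _ = N.index := rfl

/-- A bimultiplicative pairing `f : A × B → M` of finite groups with values in a commutative group `M`
embeddable in `ℂˣ` (e.g. cyclic): the indices of left and right kernels agree. -/
theorem index_ker_eq {A B M : Type*} [Group A] [Group B] [Finite A] [Finite B] [CommGroup M]
    (ι : M →* ℂˣ) (hι : Function.Injective ι) (f : A →* (B →* M)) :
    f.ker.index = f.flip.ker.index := by
  apply le_antisymm
  · apply index_ker_le ι hι
    intro b
    rw [MonoidHom.mem_ker]
    constructor
    · intro h a
      have := DFunLike.congr_fun h a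
      simpa using this
    · intro h
      ext a
      simpa using h a
  · apply index_ker_le ι hι
    intro b
    rw [MonoidHom.mem_ker]
    constructor
    · intro h a
      have := DFunLike.congr_fun h a
      simpa using this
    · intro h
      ext a
      simpa using h a

/-- A finite cyclic group embeds in `ℂˣ`. -/
theorem exists_embedding (M : Type*) [CommGroup M] [Finite M] [IsCyclic M] :
    ∃ ι : M →* ℂˣ, Function.Injective ι := by
  obtain ⟨e⟩ := CommGroup.monoidHom_mulEquiv_of_hasEnoughRootsOfUnity M ℂ
  obtain ⟨g, hg⟩ := IsCyclic.exists_generator (α := M)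
  -- a generator of the dual
  have : IsCyclic (M →* ℂˣ) := isCyclic_of_surjective e.symm e.symm.surjective
  obtain ⟨φ, hφ⟩ := IsCyclic.exists_generator (α := (M →* ℂˣ))
  refine ⟨φ, ?_⟩
  rw [injective_iff_map_eq_one]
  intro a ha
  by_contra hne
  obtain ⟨ψ, hψ⟩ := CommGroup.exists_apply_ne_one_of_hasEnoughRootsOfUnity M ℂ hne
  apply hψ
  obtain ⟨k, rfl⟩ := Subgroup.mem_zpowers_iff.mp (hφ ψ)
  rw [MonoidHom.zpow_apply, ha, one_zpow]

end H65.Pairing
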