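import Mathlib
import Cfsg.Agent.Lib.H11.SubnormalJoin
import Cfsg.Agent.Lib.H26.Subnormal
import Cfsg.Agent.Lib.H52.Sub

set_option autoImplicit false

/-! Primitive subgroups in the sense of Kurzweil-Stellmacher: `M = N_G(N)` for all `1 ≠ N ⊴ M`. -/

namespace H65.PrimSub

open Subgroup Cfsg

/-- The primitivity condition: `N_G(N) = M` for every non-trivial normal subgroup `N` of `M`. -/
def Prim {G : Type*} [Group G] (M : Subgroup G) : Prop :=
  ∀ N : Subgroup G, N ≤ M → M ≤ normalizer (N : Set G) → N ≠ ⊥ → normalizer (N : Set G) = M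

variable {G : Type*} [Group G]

theorem exists_lt_le_normalizer {T : Subgroup G} (hT : T.IsSubnormal) (hne : T ≠ ⊤) :
    ∃ K : Subgroup G, K.IsSubnormal ∧ T < K ∧ K ≤ normalizer (T : Set G) := by
  induction hT with
  | top => exact absurd rfl hne
  | step H K hHK hK hN ih =>
    by_cases h : H = K
    · subst h; exact ih hne
    · exact ⟨K, hK, lt_of_le_of_ne hHK h, (Subgroup.normal_subgroupOf_iff_le_normalizer hHK).mp hN⟩

variable [Finite G]

/-- No non-trivial subnormal subgroup of `G` lies in a primitive subgroup. -/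
theorem subnormal_eq_bot {M : Subgroup G} (hM : M ≠ ⊤) (hprim : Prim M) {L : Subgroup G}
    (hL : L.IsSubnormal) (hLM : L ≤ M) : L = ⊥ := by
  by_contra hLne
  let S : Subgroup G := sSup {L : Subgroup G | L.IsSubnormal ∧ L ≤ M}
  have hS : S.IsSubnormal := H11.SubnormalJoin.sSup_isSubnormal _ (fun U hU => hU.1)
  have hSM : S ≤ M := sSup_le fun U hU => hU.2
  have hLS : L ≤ S := le_sSup ⟨hL, hLM⟩
  have hSne : S ≠ ⊥ := fun h => hLne (le_bot_iff.mp (h ▸ hLS))
  have hMS : M ≤ normalizer (S : Set G) := by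
    rw [le_normalizer_iff]
    intro m hm x hx
    have h1 : S ≤ S.comap (MulAut.conj m).toMonoidHom := by
      refine sSup_le fun U hU => ?_
      rw [← Subgroup.map_le_iff_le_comap]
      refine le_sSup ⟨H26.Subnormal.map_conj hU.1 m, ?_⟩
      rintro _ ⟨y, hy, rfl⟩
      exact mul_mem (mul_mem hm (hU.2 hy)) (inv_mem hm)
    exact h1 hx
  have hN := hprim S hSM hMS hSne
  have hStop : S ≠ ⊤ := fun h => hM (top_le_iff.mp (h ▸ hSM))
  obtain ⟨K, hK, hSK, hKN⟩ := exists_lt_le_normalizer hS hStop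
  rw [hN] at hKN
  exact not_le_of_gt hSK (le_sSup ⟨hK, hKN⟩)

/-- Every subgroup of a nilpotent normal subgroup is subnormal. -/
theorem isSubnormal_of_le_nilpotent {N L : Subgroup G} [hNn : N.Normal] (hN : Group.IsNilpotent N) (hL : L ≤ N) :
    L.IsSubnormal :=
  Subgroup.IsSubnormal.trans hL (H52.Sub.isSubnormal_of_isNilpotent hN _) hNn.isSubnormal

theorem inf_fitting_eq_bot {M : Subgroup G} (hM : M ≠ ⊤) (hprim : Prim M) :
    M ⊓ fittingSubgroup G = ⊥ :=
  subnormal_eq_bot hM hprim (isSubnormal_of_le_nilpotent H1.Cores.isNilpotent_fittingSubgroup inf_le_right)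
    inf_le_left

end H65.PrimSub
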