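import Cfsg.Agent.Lib.H6.SL2Tor
import Cfsg.Agent.Lib.H43.GL2Basic
import Cfsg.Agent.Lib.H3.QuatSub
import Cfsg.Agent.Lib.H3.SL23
import Cfsg.Agent.Lib.H1.Coprime2
import Cfsg.Agent.Lib.H28.RelHall

set_option autoImplicit false
set_option linter.style.haveILetI false

/-! `p`-elements of `SL₂` normalizing `p'`-subgroups. -/

namespace H65.SL2Stab

open Matrix Matrix.SpecialLinearGroup Cfsg
open scoped MatrixGroups

variable {F : Type*} [Field F]

/-- a `p'`-element commuting with a nontrivial `p`-element is `±1` -/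
theorem sq_eq_one {p : ℕ} [hpf : Fact p.Prime] [CharP F p] {a s : SL(2, F)} (ha1 : a ≠ 1) {k : ℕ}
    (ha : a ^ (p ^ k) = 1) {n : ℕ} (hn : ¬ p ∣ n) (hs : s ^ n = 1) (hc : s * a = a * s) (hp : p ≠ 2) :
    s ^ 2 = 1 := by
  have h2F : (2 : F) ≠ 0 := by
    have : ((2 : ℕ) : F) ≠ 0 := by
      rw [Ne, CharP.cast_eq_zero_iff F p]
      intro h
      exact hp ((Nat.prime_dvd_prime_iff_eq hpf.out Nat.prime_two).mp h)
    exact_mod_cast this
  -- `a` is unipotent
  have h1 : (a.1 - 1) ^ (p ^ k) = 0 := by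
    have h2 : (a.1 - 1) ^ (p ^ k) = a.1 ^ (p ^ k) - 1 ^ (p ^ k) := by
      haveI : CharP (Matrix (Fin 2) (Fin 2) F) p := inferInstance
      exact sub_pow_char_pow_of_commute p k (Commute.one_right a.1)
    rw [h2, one_pow]
    have h3 : (a ^ (p ^ k)).1 = a.1 ^ (p ^ k) := by simp
    rw [← h3, ha]; simp
  have hdet : (a.1 - 1).det = 0 := by
    have := congrArg Matrix.det h1
    rw [det_pow, det_zero] at this
    · exact pow_eq_zero_iff (pow_ne_zero k hpf.out.ne_zero) |>.mp this
  have htr : a.1.trace = 2 := by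
    rw [H6.SL2Tor.det_sub_one] at hdet
    exact (sub_eq_zero.mp hdet).symm
  set N := a.1 - 1 with hN
  have hN2 : N * N = 0 := by
    have h3 := H6.SL2Tor.sq_eq a
    rw [htr] at h3
    rw [hN]
    have h4 : (a.1 - 1) * (a.1 - 1) = a.1 * a.1 - a.1 - a.1 + 1 := by noncomm_ring
    rw [h4, h3, two_smul]
    abel
  have hN0 : N ≠ 0 := by
    intro h
    apply ha1
    apply Subtype.ext
    rw [hN, sub_eq_zero] at h
    exact h
  have hns : ¬ H43.GL2Basic.IsScal a.1 := by
    rw [H43.GL2Basic.isScal_iff]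
    rintro ⟨c, hc'⟩
    rw [hc', Matrix.trace_smul, trace_one] at htr
    have hc1 : c = 1 := by
      simp only [Fintype.card_fin, Nat.cast_ofNat, smul_eq_mul] at htr
      exact mul_right_cancel₀ h2F (by rw [htr, one_mul])
    apply ha1
    apply Subtype.ext
    rw [hc', hc1, one_smul]; rfl
  have hcm : a.1 * s.1 = s.1 * a.1 := by
    have := congrArg Subtype.val hc
    exact this.symm
  obtain ⟨x, y, hxy⟩ := (H43.GL2Basic.commute_iff hns s.1).mp hcm
  -- `s = c + yN`
  have hs1 : s.1 = (x + y) • (1 : Matrix (Fin 2) (Fin 2) F) + y • N := by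
    rw [hxy, hN, smul_sub, add_smul]; abel
  set c := x + y with hcdef
  have hpow : ∀ m : ℕ, s.1 ^ m = c ^ m • (1 : Matrix (Fin 2) (Fin 2) F) + (m * c ^ (m - 1) * y) • N := by
    intro m
    induction m with
    | zero => simp
    | succ m ih =>
      rw [pow_succ, ih, hs1]
      rw [add_mul, mul_add, mul_add]
      simp only [smul_mul_assoc, mul_smul_comm, one_mul, mul_one, smul_smul, hN2, smul_zero, add_zero]
      rw [add_assoc, ← add_smul]
      congr 1
      · rw [pow_succ, mul_comm]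
      · congr 1
        cases m with
        | zero => simp
        | succ m =>
          simp only [Nat.add_sub_cancel, Nat.cast_add, Nat.cast_one]
          ring
  have hn' : s.1 ^ n = 1 := by
    have : (s ^ n).1 = s.1 ^ n := by simp
    rw [← this, hs]; rfl
  have h5 := hpow n
  rw [hn'] at h5
  have hy : y = 0 ∧ c ^ n = 1 := by
    have h6 := congrArg (fun M => M * N) h5
    simp only [one_mul, add_mul, smul_mul_assoc, hN2, smul_zero, add_zero] at h6
    have h7 : (c ^ n - 1) • N = 0 := by rw [sub_smul, one_smul, ← h6, sub_self]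
    have h8 : c ^ n = 1 := by
      rcases smul_eq_zero.mp h7 with h | h
      · exact sub_eq_zero.mp h
      · exact absurd h hN0
    rw [h8, one_smul] at h5
    have h9 : ((n : F) * c ^ (n - 1) * y) • N = 0 := by
      have := congrArg (fun M => M - 1) h5
      simpa using this.symm
    refine ⟨?_, h8⟩
    rcases smul_eq_zero.mp h9 with h | h
    · rcases mul_eq_zero.mp h with h | h
      · rcases mul_eq_zero.mp h with h | h
        · rw [CharP.cast_eq_zero_iff F p] at h
          exact absurd h hn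
        · exfalso
          have hn0 : n ≠ 0 := by rintro rfl; exact hn (dvd_zero p)
          have hc0 : c = 0 := by
            by_contra hc0
            exact pow_ne_zero _ hc0 h
          rw [hc0, zero_pow hn0] at h8
          exact zero_ne_one h8
      · exact h
    · exact absurd h hN0
  have hd : s.1.det = 1 := s.2
  rw [hs1, hy.1, zero_smul, add_zero, det_smul, det_one, Fintype.card_fin, mul_one] at hd
  apply Subtype.ext
  have h10 : (s ^ 2).1 = s.1 ^ 2 := by simp
  rw [h10, hpow 2, hy.1, hd]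
  simp

/-- commuting elements with the same trace -/
theorem eq_or_mul_eq_one {s t : SL(2, F)} (hst : s * t = t * s) (htr : s.1.trace = t.1.trace) {n : ℕ}
    (hn : (n : F) ≠ 0) (h : (s * t) ^ n = 1) : t = s ∨ s * t = 1 := by
  by_cases hts : t = s
  · exact Or.inl hts
  right
  have hne : s.1 - t.1 ≠ 0 := fun h => hts (Subtype.ext (sub_eq_zero.mp h)).symm
  have hinv : ∀ g : SL(2, F), g.1 * g.1 + 1 = g.1.trace • g.1 := by
    intro g
    rw [H6.SL2Tor.sq_eq g]; abel
  have hc : s.1 * t.1 = t.1 * s.1 := congrArg Subtype.val hst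
  have key : (s.1 * t.1 - 1) * (s.1 - t.1) = 0 := by
    have e1 : s.1 * s.1 * t.1 + t.1 = s.1.trace • (s.1 * t.1) := by
      have := congrArg (fun M => M * t.1) (hinv s)
      simpa only [add_mul, one_mul, smul_mul_assoc] using this
    have e2 : s.1 * (t.1 * t.1) + s.1 = t.1.trace • (s.1 * t.1) := by
      have := congrArg (fun M => s.1 * M) (hinv t)
      simpa only [mul_add, mul_one, mul_smul_comm] using this
    have e3 : (s.1 * t.1 - 1) * (s.1 - t.1) = (s.1 * t.1 * s.1 + t.1) - (s.1 * (t.1 * t.1) + s.1) := by noncomm_ring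
    have e4 : s.1 * t.1 * s.1 = s.1 * s.1 * t.1 := by rw [mul_assoc, ← hc, ← mul_assoc]
    rw [e3, e4, e1, e2, htr, sub_self]
  -- a vector
  obtain ⟨j, hj⟩ : ∃ j, (s.1 - t.1) *ᵥ (Pi.single j 1) ≠ 0 := by
    by_contra hcon
    push Not at hcon
    apply hne
    ext i j
    have := congrFun (hcon j) i
    simpa [Matrix.mulVec_single_one] using this
  refine H6.SL2Tor.eq_one_of_fix hj ?_ hn h
  have h1 : (s.1 * t.1 - 1) *ᵥ ((s.1 - t.1) *ᵥ (Pi.single j 1)) = 0 := by
    rw [mulVec_mulVec, key, zero_mulVec]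
  rw [sub_mulVec, one_mulVec, sub_eq_zero] at h1
  exact h1

theorem cast_ne_zero {p : ℕ} [CharP F p] {n : ℕ} (h : ¬ p ∣ n) : (n : F) ≠ 0 := by
  rw [Ne, CharP.cast_eq_zero_iff F p]; exact h

theorem cyc_centralized [Finite F] {p : ℕ} [hpf : Fact p.Prime] [CharP F p] (hp : p ≠ 2) {a : SL(2, F)} {k : ℕ}
    (ha : a ^ (p ^ k) = 1) {S : Subgroup SL(2, F)} (hS : IsCyclic S) (hcop : ¬ p ∣ Nat.card S)
    (haS : a ∈ Subgroup.normalizer (S : Set SL(2, F))) : ∀ s ∈ S, a * s = s * a := by
  obtain ⟨⟨s, hs⟩, hgen⟩ := hS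
  have ht : a * s * a⁻¹ ∈ S := (Subgroup.mem_normalizer_iff.mp haS s).mp hs
  have hpow : ∀ x ∈ S, ∃ n : ℤ, s ^ n = x := by
    intro x hx
    obtain ⟨n, hn⟩ := hgen ⟨x, hx⟩
    exact ⟨n, congrArg Subtype.val hn⟩
  have hcomm : ∀ x ∈ S, s * x = x * s := by
    intro x hx
    obtain ⟨n, rfl⟩ := hpow x hx
    exact ((Commute.refl s).zpow_right n).eq
  have htr : s.1.trace = (a * s * a⁻¹).1.trace := by
    have : (a * s * a⁻¹).1 = a.1 * s.1 * a⁻¹.1 := rfl
    rw [this, Matrix.trace_mul_cycle]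
    have h2 : a⁻¹.1 * a.1 = 1 := congrArg Subtype.val (inv_mul_cancel a)
    rw [h2, one_mul]
  have h1 := eq_or_mul_eq_one (hcomm _ ht) htr (cast_ne_zero (p := p) hcop)
    (by
      have : (⟨s * (a * s * a⁻¹), mul_mem hs ht⟩ : S) ^ Nat.card S = 1 := pow_card_eq_one'
      exact congrArg Subtype.val this)
  have h2 : a ^ 2 * s = s * a ^ 2 := by
    rcases h1 with h1 | h1
    · have h3 : a * s = s * a := mul_inv_eq_iff_eq_mul.mp h1
      rw [pow_two, mul_assoc, h3, ← mul_assoc, h3, mul_assoc]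
    · have h3 : a * s * a⁻¹ = s⁻¹ := (inv_eq_of_mul_eq_one_right h1).symm
      have h4 : a ^ 2 * s * (a ^ 2)⁻¹ = s := by
        have : a ^ 2 * s * (a ^ 2)⁻¹ = a * (a * s * a⁻¹) * a⁻¹ := by rw [pow_two]; group
        rw [this, h3]
        have : a * s⁻¹ * a⁻¹ = (a * s * a⁻¹)⁻¹ := by group
        rw [this, h3, inv_inv]
      exact mul_inv_eq_iff_eq_mul.mp h4
  have h3 : a * s = s * a := by
    have hodd : (2 : ℕ).Coprime (orderOf a) := by
      have h5 : orderOf a ∣ p ^ k := orderOf_dvd_of_pow_eq_one ha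
      refine Nat.Coprime.coprime_dvd_right h5 (Nat.Coprime.pow_right k ?_)
      exact (Nat.coprime_primes Nat.prime_two hpf.out).mpr (Ne.symm hp)
    obtain ⟨m, hm⟩ := exists_pow_eq_self_of_coprime hodd
    have : Commute (a ^ 2) s := h2
    have := this.pow_left m
    rw [hm] at this
    exact this
  intro x hx
  obtain ⟨n, rfl⟩ := hpow x hx
  exact (show Commute a s from h3).zpow_right n

theorem main [Finite F] {p : ℕ} [hpf : Fact p.Prime] [CharP F p] (hp : p ≠ 2) (a : SL(2, F))
    (ha : IsPGroup p (Subgroup.zpowers a)) (R : Subgroup SL(2, F)) (hR : (Nat.card R).Coprime p)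
    (haR : a ∈ Subgroup.normalizer (R : Set SL(2, F))) (hnt : ⁅R, Subgroup.zpowers a⁆ ≠ ⊥) :
    p = 3 ∧ Nonempty (R ≃* QuaternionGroup 2) ∧
      Nonempty ((R ⊔ Subgroup.zpowers a : Subgroup SL(2, F)) ≃* SL(2, ZMod 3)) := by
  classical
  have h2F : (2 : F) ≠ 0 := by
    have : ((2 : ℕ) : F) ≠ 0 := cast_ne_zero (p := p) (fun h =>
      hp ((Nat.prime_dvd_prime_iff_eq hpf.out Nat.prime_two).mp h))
    exact_mod_cast this
  have hpR : ¬ p ∣ Nat.card R := (Nat.Prime.coprime_iff_not_dvd hpf.out).mp hR.symm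
  obtain ⟨k, hk⟩ := ha ⟨a, Subgroup.mem_zpowers a⟩
  have hk' : a ^ (p ^ k) = 1 := by
    have := congrArg Subtype.val hk
    simpa using this
  have hnc : ¬ ∀ s ∈ R, a * s = s * a := by
    intro h
    apply hnt
    rw [Subgroup.commutator_eq_bot_iff_le_centralizer]
    intro r hr
    rw [Subgroup.mem_centralizer_iff]
    intro x hx
    obtain ⟨n, rfl⟩ := Subgroup.mem_zpowers_iff.mp hx
    exact ((show Commute a r from h r hr).zpow_left n).eq
  have ha1 : a ≠ 1 := by
    rintro rfl
    exact hnc (by simp)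
  have hcop : (Nat.card (Subgroup.zpowers a)).Coprime (Nat.card R) := by
    obtain ⟨m, hm⟩ := IsPGroup.iff_card.mp ha
    rw [hm]
    exact Nat.Coprime.pow_left m hR.symm
  -- `R` is a 2-group
  have hR2 : IsPGroup 2 R := by
    rw [IsPGroup.iff_card]
    refine ⟨(Nat.card R).primeFactorsList.length, ?_⟩
    apply Nat.eq_prime_pow_of_unique_prime_dvd Nat.card_pos.ne'
    intro r hr hrd
    by_contra hr2
    haveI := Fact.mk hr
    obtain ⟨S, hS, haS⟩ := H1.Coprime2.exists_invariant_sylow (Subgroup.zpowers a) R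
      (by rw [Subgroup.zpowers_le]; exact haR) hcop (Or.inl (by
        haveI : IsMulCommutative (Subgroup.zpowers a) := inferInstance
        exact Group.isSolvable_of_comm (fun x y => (this.is_comm.comm x y)))) r
    have hrp : r ≠ p := by
      rintro rfl
      exact hpR hrd
    have hScyc : IsCyclic S := by
      refine H6.SL2Tor.isCyclic_of_odd_pgroup hr2 (cast_ne_zero (p := p) ?_) hS.isPGroup S.subtype
        S.subtype_injective
      intro h
      exact hrp ((Nat.prime_dvd_prime_iff_eq hpf.out hr).mp h).symm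
    have hpS : ¬ p ∣ Nat.card S := fun h => hpR (h.trans (Subgroup.card_dvd_of_le hS.1))
    have hcS := cyc_centralized hp hk' hScyc hpS (haS (Subgroup.mem_zpowers a))
    have hrS : r ∣ Nat.card S := by
      rw [hS.2]
      have : 1 ≤ (Nat.card R).factorization r :=
        (Nat.Prime.dvd_iff_one_le_factorization hr Nat.card_pos.ne').mp hrd
      exact dvd_pow_self r (by omega)
    obtain ⟨s, hs⟩ := exists_prime_orderOf_dvd_card' r hrS
    have h1 : (s : SL(2, F)) ^ 2 = 1 := by
      refine sq_eq_one ha1 hk' (n := r) ?_ ?_ (hcS s s.2).symm hp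
      · intro h
        exact hrp ((Nat.prime_dvd_prime_iff_eq hpf.out hr).mp h).symm
      · have := pow_orderOf_eq_one s
        rw [hs] at this
        exact congrArg Subtype.val this
    have h2 : orderOf s ∣ 2 := by
      apply orderOf_dvd_of_pow_eq_one
      exact Subtype.ext h1
    rw [hs] at h2
    exact hr2 ((Nat.prime_dvd_prime_iff_eq hr Nat.prime_two).mp h2)
  have hRnc : ¬ IsCyclic R := fun h => hnc (cyc_centralized hp hk' h hpR haR)
  obtain ⟨m, hm1, ⟨e⟩⟩ := H6.SL2Tor.quaternion_of_pgroup h2F hR2 R.subtype R.subtype_injective hRnc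
  haveI : NeZero (2 ^ m) := ⟨by positivity⟩
  let α : MulAut R := R.normalizerMonoidHom ⟨a, haR⟩
  have hα : ∀ r : R, ((α r : R) : SL(2, F)) = a * r * a⁻¹ := fun r => rfl
  have hαp : α ^ (p ^ k) = 1 := by
    have h1 : (⟨a, haR⟩ : Subgroup.normalizer (R : Set SL(2, F))) ^ (p ^ k) = 1 := Subtype.ext hk'
    show (R.normalizerMonoidHom ⟨a, haR⟩) ^ (p ^ k) = 1
    rw [← map_pow, h1, map_one]
  have hαo : Nat.Coprime (orderOf α) 2 := by
    refine Nat.Coprime.coprime_dvd_left (orderOf_dvd_of_pow_eq_one hαp) (Nat.Coprime.pow_left k ?_)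
    exact (Nat.coprime_primes hpf.out Nat.prime_two).mpr hp
  have hα1 : α ≠ 1 := by
    intro h
    apply hnc
    intro s hs
    have h1 := hα ⟨s, hs⟩
    rw [h] at h1
    exact (mul_inv_eq_iff_eq_mul.mp h1.symm)
  obtain ⟨i, j, hi4, hi2, hj2, hji, hαi, hαj, hcl, hcard⟩ :=
    H3.QuatSub.main hR2 e.toMonoidHom e.injective α hαo hα1
  have hai : a * (i : SL(2, F)) = j * a := by
    have := hα i
    rw [hαi] at this
    exact (mul_inv_eq_iff_eq_mul.mp this.symm)
  have haj : a * (j : SL(2, F)) = i * j * a := by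
    have := hα j
    rw [hαj] at this
    exact (mul_inv_eq_iff_eq_mul.mp this.symm)
  have hji' : (j : SL(2, F)) * i = (i : SL(2, F))⁻¹ * j := congrArg Subtype.val hji
  have hj2' : (j : SL(2, F)) ^ 2 = (i : SL(2, F)) ^ 2 := congrArg Subtype.val hj2
  have hi4' : (i : SL(2, F)) ^ 4 = 1 := congrArg Subtype.val hi4
  have h3 : a ^ 3 * (i : SL(2, F)) = i * a ^ 3 := by
    calc a ^ 3 * (i : SL(2, F)) = a * (a * (a * i)) := by rw [pow_succ, pow_two]; group
      _ = a * (a * j) * a := by rw [hai]; group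
      _ = (a * i) * j * a * a := by rw [haj]; group
      _ = j * (a * j) * a * a := by rw [hai]; group
      _ = (j * i) * j * a ^ 3 := by rw [haj, pow_succ, pow_two]; group
      _ = (i : SL(2, F))⁻¹ * (j ^ 2) * a ^ 3 := by rw [hji', pow_two]; group
      _ = i * a ^ 3 := by rw [hj2', pow_two]; group
  have ha3 : a ^ 3 = 1 := by
    by_contra hne
    have h5 := sq_eq_one (p := p) hne (k := k) (by rw [← pow_mul, mul_comm, pow_mul, hk', one_pow]) (n := 4)
      (fun h => by
        have h6 : p ∣ 2 ^ 2 := h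
        exact hp ((Nat.prime_dvd_prime_iff_eq hpf.out Nat.prime_two).mp (hpf.out.dvd_of_dvd_pow h6)))
      hi4' h3.symm hp
    exact hi2 (Subtype.ext h5)
  have hoa : orderOf a = 3 := by
    have := orderOf_dvd_of_pow_eq_one ha3
    rcases (Nat.dvd_prime Nat.prime_three).mp this with h | h
    · exact absurd (orderOf_eq_one_iff.mp h) ha1
    · exact h
  have hp3 : p = 3 := by
    have h5 : orderOf a ∣ p ^ k := orderOf_dvd_of_pow_eq_one hk'
    rw [hoa] at h5
    exact ((Nat.prime_dvd_prime_iff_eq Nat.prime_three hpf.out).mp (Nat.prime_three.dvd_of_dvd_pow h5)).symm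
  refine ⟨hp3, ?_, ?_⟩
  · have hc := Nat.card_congr e.toEquiv
    rw [hcard, Nat.card_eq_fintype_card, QuaternionGroup.card] at hc
    have h4 : 2 ^ m = 2 := by omega
    rw [h4] at e
    exact ⟨e⟩
  · set L : Subgroup SL(2, F) := R ⊔ Subgroup.zpowers a with hL
    have hiL : (i : SL(2, F)) ∈ L := Subgroup.mem_sup_left i.2
    have hjL : (j : SL(2, F)) ∈ L := Subgroup.mem_sup_left j.2
    have haL : a ∈ L := Subgroup.mem_sup_right (Subgroup.mem_zpowers a)
    have hrel : H3.SL23.Rel (⟨i, hiL⟩ : L) ⟨j, hjL⟩ ⟨a, haL⟩ :=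
      ⟨Subtype.ext hi4', Subtype.ext hj2', Subtype.ext hji', Subtype.ext ha3, Subtype.ext hai, Subtype.ext haj⟩
    refine H3.SL23.nonempty_mulEquiv_of_rel hrel H3.SL23.rel_S ?_ H3.SL23.closure_S ?_ H3.SL23.card_S
    · apply Subgroup.map_injective L.subtype_injective
      rw [MonoidHom.map_closure, ← MonoidHom.range_eq_map, Subgroup.range_subtype]
      have h1 : R = Subgroup.closure {(i : SL(2, F)), (j : SL(2, F))} := by
        have := congrArg (Subgroup.map R.subtype) hcl
        rw [MonoidHom.map_closure, ← MonoidHom.range_eq_map, Subgroup.range_subtype, Set.image_pair] at this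
        exact this.symm
      apply le_antisymm
      · rw [Subgroup.closure_le]
        rintro _ ⟨y, -, rfl⟩
        exact y.2
      · refine sup_le (h1.le.trans (Subgroup.closure_mono ?_)) ?_
        · rintro y (rfl | rfl)
          · exact ⟨⟨i, hiL⟩, by simp, rfl⟩
          · exact ⟨⟨j, hjL⟩, by simp, rfl⟩
        · rw [Subgroup.zpowers_le]
          exact Subgroup.subset_closure ⟨⟨a, haL⟩, by simp, rfl⟩
    · have h1 := H28.RelHall.card_sup_mul_card_inf (H := Subgroup.zpowers a) (N := R)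
        (by rw [Subgroup.zpowers_le]; exact haR)
      have h2 : (Subgroup.zpowers a ⊓ R : Subgroup SL(2, F)) = ⊥ := by
        apply disjoint_iff.mp
        exact Subgroup.disjoint_of_coprime_natCard hcop
      rw [h2, Subgroup.card_bot, mul_one, Nat.card_zpowers, hoa, hcard] at h1
      rw [hL, sup_comm]
      exact h1

end H65.SL2Stab
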