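import Mathlib
import Cfsg.Agent.Lib.H65.Baer
import Cfsg.Agent.Lib.H65.HallHigman

set_option autoImplicit false

/-! Thompson's strengthening of the `P × Q` lemma for odd primes. -/

namespace H65.ThompsonPQ

open Subgroup
open scoped commutatorElement

theorem class_two {X : Type*} [Group X] [Finite X] {p : ℕ} [Fact p.Prime] (hp : p ≠ 2)
    (P Q G : Subgroup X) (hP : IsPGroup p P) (hQ : (Nat.card Q).Coprime p)
    (hPQ : P ≤ normalizer (Q : Set X)) (hG : IsPGroup p G) (hPG : P ≤ normalizer (G : Set X))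
    (hQG : Q ≤ normalizer (G : Set X)) (hC : G ⊓ centralizer (P : Set X) ≤ centralizer (Q : Set X))
    (hZ : commutator G ≤ center G) (hexp : ∀ x y : G, ⁅x, y⁆ ^ p = 1) :
    Q ≤ centralizer (G : Set X) := by
  classical
  have hpp : p.Prime := Fact.out
  obtain ⟨m, hm⟩ : ∃ m, 2 * m + 1 = p := by
    obtain ⟨m, hm⟩ := hpp.odd_of_ne_two hp
    exact ⟨m, hm.symm⟩
  let K := (G : Type _)
  let _ : AddCommGroup G := H65.Baer.addCommGroup hZ p m hm hexp
  have hadd : ∀ x y : G, x + y = x * y * ⁅x, y⁆ ^ m := fun x y => rfl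
  have hzero : (0 : G) = 1 := rfl
  let c : normalizer (G : Set X) →* MulAut G := G.normalizerMonoidHom
  have hc : ∀ (g : normalizer (G : Set X)) (x : G), ((c g x : G) : X) = g * x * (g : X)⁻¹ := fun g x => rfl
  let ca : normalizer (G : Set X) → (G →+ G) := fun g =>
    { toFun := c g
      map_zero' := by rw [hzero, map_one]
      map_add' := by
        intro x y
        rw [hadd, hadd]
        exact H65.Baer.map_baer m (c g) x y }
  have : Fintype Q := Fintype.ofFinite Q
  let θ : G →+ G := ∑ a : Q, ca ⟨a, hQG a.2⟩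
  have hθ : ∀ x : G, θ x = ∑ a : Q, c ⟨a, hQG a.2⟩ x := by
    intro x
    simp only [θ, AddMonoidHom.finsetSum_apply]
    rfl
  by_contra hcon
  -- some a₀ ∈ Q moves some k₀ ∈ G
  obtain ⟨a₀, ha₀, k₀, hk₀⟩ : ∃ a₀ : X, ∃ ha₀ : a₀ ∈ Q, ∃ k₀ : G, c ⟨a₀, hQG ha₀⟩ k₀ ≠ k₀ := by
    by_contra hno
    push Not at hno
    apply hcon
    intro a ha
    rw [mem_centralizer_iff]
    intro k hk
    have h1 := congrArg Subtype.val (hno a ha ⟨k, hk⟩)
    rw [hc] at h1
    exact (mul_inv_eq_iff_eq_mul.mp h1).symm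
  have hinvθ : ∀ (a : X) (ha : a ∈ Q) (x : G), θ (c ⟨a, hQG ha⟩ x) = θ x := by
    intro a ha x
    rw [hθ, hθ]
    apply Fintype.sum_bijective (fun b : Q => b * ⟨a, ha⟩)
    · exact Group.mulRight_bijective _
    · intro b
      rw [← MulAut.mul_apply, ← map_mul]
      rfl
  -- P-equivariance of θ
  have hequiv : ∀ (u : X) (hu : u ∈ P) (x : G), θ (c ⟨u, hPG hu⟩ x) = c ⟨u, hPG hu⟩ (θ x) := by
    intro u hu x
    have h1 : c ⟨u, hPG hu⟩ (θ x) = ca ⟨u, hPG hu⟩ (θ x) := rfl
    rw [h1, hθ, hθ, map_sum]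
    have hconj : ∀ b : Q, u⁻¹ * b * u ∈ Q := by
      intro b
      have := (mem_normalizer_iff.mp (inv_mem (hPQ hu)) b).mp b.2
      simpa using this
    have hconj' : ∀ b : Q, u * b * u⁻¹ ∈ Q := by
      intro b
      exact (mem_normalizer_iff.mp (hPQ hu) b).mp b.2
    let e : Q ≃ Q :=
      { toFun := fun b => ⟨u⁻¹ * b * u, hconj b⟩
        invFun := fun b => ⟨u * b * u⁻¹, hconj' b⟩
        left_inv := fun b => by apply Subtype.ext; simp [mul_assoc]
        right_inv := fun b => by apply Subtype.ext; simp [mul_assoc] }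
    apply Fintype.sum_equiv e
    intro b
    show c _ (c _ x) = c _ (c _ x)
    rw [← MulAut.mul_apply, ← MulAut.mul_apply, ← map_mul, ← map_mul]
    congr 2
    apply Subtype.ext
    simp [e, mul_assoc]
  let K₀ : AddSubgroup G := θ.ker
  -- K₀ is nontrivial
  have hy : c ⟨a₀, hQG ha₀⟩ k₀ - k₀ ∈ K₀ := by
    rw [AddMonoidHom.mem_ker, map_sub, hinvθ a₀ ha₀, sub_self]
  have hy0 : c ⟨a₀, hQG ha₀⟩ k₀ - k₀ ≠ 0 := sub_ne_zero.mpr hk₀
  have hK₀ : K₀ ≠ ⊥ := by
    intro h
    rw [h, AddSubgroup.mem_bot] at hy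
    exact hy0 hy
  obtain ⟨n, hn⟩ := hG.exists_card_eq
  have hdvd : p ∣ Nat.card K₀ := by
    have h1 : Nat.card K₀ ∣ p ^ n := by
      rw [← hn]; exact AddSubgroup.card_addSubgroup_dvd_card K₀
    obtain ⟨i, -, hi⟩ := (Nat.dvd_prime_pow hpp).mp h1
    rw [hi]
    apply dvd_pow_self
    rintro rfl
    apply hK₀
    rw [pow_zero] at hi
    exact AddSubgroup.card_eq_one.mp hi
  let act : MulAction P K₀ :=
    { smul := fun u x => ⟨c ⟨u, hPG u.2⟩ x, by
        rw [AddMonoidHom.mem_ker, hequiv u u.2, (AddMonoidHom.mem_ker.mp x.2), hzero, map_one]⟩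
      one_smul := by
        intro x
        apply Subtype.ext
        show c _ x.1 = x.1
        have : (⟨((1 : P) : X), hPG (1 : P).2⟩ : normalizer (G : Set X)) = 1 := rfl
        rw [this, map_one]; rfl
      mul_smul := by
        intro u v x
        apply Subtype.ext
        show c _ x.1 = c _ (c _ x.1)
        rw [← MulAut.mul_apply, ← map_mul]
        rfl }
  have hsm : ∀ (u : P) (x : K₀), ((u • x : K₀) : G) = c ⟨u, hPG u.2⟩ x := fun u x => rfl
  have h0 : (0 : K₀) ∈ MulAction.fixedPoints P K₀ := by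
    intro u
    apply Subtype.ext
    rw [hsm]
    show c _ (0 : G) = 0
    rw [hzero, map_one]
  obtain ⟨b, hb, hb0⟩ := hP.exists_fixed_point_of_prime_dvd_card_of_fixed_point K₀ hdvd h0
  -- b is fixed by P hence by Q
  have hbP : ((b : G) : X) ∈ G ⊓ centralizer (P : Set X) := by
    refine mem_inf.mpr ⟨b.1.2, ?_⟩
    rw [mem_centralizer_iff]
    intro u hu
    have h1 := congrArg (fun x : K₀ => ((x : G) : X)) (hb ⟨u, hu⟩)
    simp only [hsm, hc] at h1
    exact mul_inv_eq_iff_eq_mul.mp h1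
  have hbQ := hC hbP
  have hfix : ∀ a : Q, c ⟨a, hQG a.2⟩ b.1 = b.1 := by
    intro a
    apply Subtype.ext
    rw [hc]
    rw [mul_inv_eq_iff_eq_mul]
    exact (mem_centralizer_iff.mp hbQ) a a.2
  have h2 : (Nat.card Q) • b.1 = 0 := by
    have h3 := AddMonoidHom.mem_ker.mp b.2
    rw [hθ, Finset.sum_congr rfl (fun a _ => hfix a), Finset.sum_const, Finset.card_univ,
      ← Nat.card_eq_fintype_card] at h3
    exact h3
  have h4 : (Nat.card G) • b.1 = 0 := card_nsmul_eq_zero'
  have h5 : addOrderOf b.1 ∣ Nat.gcd (Nat.card Q) (Nat.card G) :=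
    Nat.dvd_gcd (addOrderOf_dvd_of_nsmul_eq_zero h2) (addOrderOf_dvd_of_nsmul_eq_zero h4)
  have h6 : Nat.gcd (Nat.card Q) (Nat.card G) = 1 := by
    rw [hn]; exact Nat.Coprime.pow_right n hQ
  rw [h6, Nat.dvd_one, AddMonoid.addOrderOf_eq_one_iff] at h5
  exact hb0 (Subtype.ext h5.symm)

/-- Thompson's strengthening of the `P × Q` lemma for odd primes. -/
theorem main {X : Type*} [Group X] [Finite X] {p : ℕ} [Fact p.Prime] (hp : p ≠ 2)
    (P Q : Subgroup X) (hP : IsPGroup p P) (hQ : (Nat.card Q).Coprime p)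
    (hPQ : P ≤ normalizer (Q : Set X)) (n : ℕ) : ∀ G : Subgroup X, Nat.card G = n → IsPGroup p G →
    P ≤ normalizer (G : Set X) → Q ≤ normalizer (G : Set X) →
    G ⊓ centralizer (P : Set X) ≤ centralizer (Q : Set X) →
    Q ≤ centralizer (G : Set X) := by
  induction n using Nat.strong_induction_on with
  | _ n ih =>
    intro G hn hG hPG hQG hC
    by_contra hcon
    have hnt : ⁅G, Q⁆ ≠ ⊥ := by
      intro h
      apply hcon
      rw [commutator_comm, commutator_eq_bot_iff_le_centralizer] at h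
      exact h
    have hBG : P ⊔ Q ≤ normalizer (G : Set X) := sup_le hPG hQG
    have hBQ : P ⊔ Q ≤ normalizer (Q : Set X) := sup_le hPQ le_normalizer
    have hmin : ∀ U : Subgroup X, U < G → P ⊔ Q ≤ normalizer (U : Set X) → ⁅U, Q⁆ = ⊥ := by
      intro U hU hBU
      rw [commutator_comm, commutator_eq_bot_iff_le_centralizer]
      have hlt : Nat.card U < n := by
        rw [← hn]
        rcases lt_or_ge (Nat.card U) (Nat.card G) with h | h
        · exact h
        · exact absurd (eq_of_le_of_card_ge hU.le h) hU.ne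
      exact ih (Nat.card U) hlt U rfl (hG.to_le hU.le) (le_sup_left.trans hBU) (le_sup_right.trans hBU)
        ((inf_le_inf_right _ hU.le).trans hC)
    obtain ⟨-, -, -, h4, -, h6⟩ := H65.HallHigman.minimal_action (P ⊔ Q) Q G hG hBG le_sup_right hBQ hQ hnt hmin
    have h7 := h6 hp
    have hZ : commutator G ≤ center G := by
      rcases h4 with h4 | h4
      · rw [_root_.commutator_def, commutator_le]
        intro x _ y _
        have h8 : ⁅x, y⁆ = 1 := by
          rw [commutatorElement_eq_one_iff_mul_comm]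
          have := h4.1
          exact mul_comm' x y
        rw [h8]
        exact one_mem _
      · exact h4.2.2.le
    have hexp : ∀ x y : G, ⁅x, y⁆ ^ p = 1 := by
      intro x y
      apply Subtype.ext
      exact h7 _ (⁅x, y⁆ : G).2
    exact hcon (class_two hp P Q G hP hQ hPQ hG hPG hQG hC hZ hexp)

end H65.ThompsonPQ
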